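import Cfsg.Agent.H7.Comm

/-! Small facts on derived series. -/

set_option autoImplicit false

namespace Cfsg.Agent.H7

open Subgroup

variable {G : Type*} [Group G]

theorem der_add (N : Subgroup G) {a b : ℕ} (h1 : derivedSeries G a ≤ N)
    (h2 : derivedSeries N b = ⊥) : derivedSeries G (a + b) = ⊥ := by
  have : ∀ k, derivedSeries G (a + k) ≤ (derivedSeries N k).map N.subtype := by
    intro k
    induction k with
    | zero => simpa [← MonoidHom.range_eq_map] using h1
    | succ k ih =>
      rw [← add_assoc, derivedSeries_succ, derivedSeries_succ, Subgroup.map_commutator]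
      exact commutator_mono ih ih
  have h3 := this b
  rwa [h2, Subgroup.map_bot, le_bot_iff] at h3

theorem der_le_of_quot (N : Subgroup G) [N.Normal] {a : ℕ} (h : derivedSeries (G ⧸ N) a = ⊥) :
    derivedSeries G a ≤ N := by
  rw [le_iff_map_mk'_eq_bot, map_derivedSeries_eq (QuotientGroup.mk'_surjective N), h]

theorem der_eq_bot_of_injective {H : Type*} [Group H] {f : G →* H} (hf : Function.Injective f)
    {a : ℕ} (h : derivedSeries H a = ⊥) : derivedSeries G a = ⊥ := by
  rw [← Subgroup.map_eq_bot_iff_of_injective _ hf, ← le_bot_iff, ← h]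
  exact map_derivedSeries_le_derivedSeries f a

theorem der_eq_bot_of_surjective {H : Type*} [Group H] {f : G →* H} (hf : Function.Surjective f)
    {a : ℕ} (h : derivedSeries G a = ⊥) : derivedSeries H a = ⊥ := by
  rw [← map_derivedSeries_eq hf, h, Subgroup.map_bot]

theorem der_eq_bot_of_le {A B : Subgroup G} (h : A ≤ B) {a : ℕ} (hB : derivedSeries B a = ⊥) :
    derivedSeries A a = ⊥ := der_eq_bot_of_injective (inclusion_injective h) hB

/-- all `p`-subgroups have derived length at most `d` -/
def PDerLE (p d : ℕ) (G : Type*) [Group G] : Prop :=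
  ∀ P : Subgroup G, IsPGroup p P → derivedSeries P d = ⊥

theorem pDerLE_of_sylow {p d : ℕ} (h : ∀ P : Sylow p G, derivedSeries (P : Subgroup G) d = ⊥) :
    PDerLE p d G := fun _ hP =>
  let ⟨S, hS⟩ := hP.exists_le_sylow
  der_eq_bot_of_le hS (h S)

theorem PDerLE.of_surjective [Finite G] {p d : ℕ} [Fact p.Prime] (h : PDerLE p d G) {H : Type*}
    [Group H] {f : G →* H} (hf : Function.Surjective f) : PDerLE p d H := by
  apply pDerLE_of_sylow
  intro S
  obtain ⟨S, rfl⟩ := Sylow.mapSurjective_surjective hf p S
  exact der_eq_bot_of_surjective (f.subgroupMap_surjective _) (h S S.isPGroup')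

end Cfsg.Agent.H7
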