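import Mathlib

/-! Krull-Remak-Schmidt tools: Fitting lemma for normal endomorphisms, exchange. -/

namespace Cfsg.Agent.H7

/-- indecomposable -/
def Indec (A : Type*) [Group A] : Prop :=
  Nontrivial A ∧ ∀ H K : Subgroup A, H.Normal → K.Normal → H ⊓ K = ⊥ → H ⊔ K = ⊤ → H = ⊥ ∨ K = ⊥

theorem exists_pow_idem {M : Type*} [Monoid M] [Finite M] (f : M) :
    ∃ N, 0 < N ∧ f ^ N * f ^ N = f ^ N := by
  obtain ⟨i, j, hij, h⟩ := Finite.exists_ne_map_eq_of_infinite (fun n : ℕ => f ^ n)
  wlog hlt : i < j generalizing i j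
  · exact this j i hij.symm h.symm (by omega)
  obtain ⟨d, rfl⟩ := Nat.exists_eq_add_of_lt hlt
  have h' : f ^ i = f ^ (i + d + 1) := h
  have key : ∀ k, f ^ (i + k * (d + 1)) = f ^ i := by
    intro k
    induction k with
    | zero => simp
    | succ k ih =>
      have : i + (k + 1) * (d + 1) = (i + d + 1) + k * (d + 1) := by ring
      rw [this, pow_add, ← h', ← pow_add, ih]
  refine ⟨(i + 1) * (d + 1), by positivity, ?_⟩
  obtain ⟨c, hc⟩ : ∃ c, (i + 1) * (d + 1) = c + i := ⟨(i + 1) * (d + 1) - i, by
    have : i + 1 ≤ (i + 1) * (d + 1) := Nat.le_mul_of_pos_right _ (by omega)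
    omega⟩
  rw [← pow_add]
  have e1 : (i + 1) * (d + 1) + (i + 1) * (d + 1) = c + (i + (i + 1) * (d + 1)) := by
    rw [← add_assoc, ← hc]
  rw [e1, pow_add, key, ← pow_add, ← hc]

/-- Fitting's lemma for normal endomorphisms of a finite indecomposable group -/
theorem injective_or_nilpotent {A : Type*} [Group A] [Finite A] (hA : Indec A)
    (f : Monoid.End A) (hf : ∀ c a, f (c * a * c⁻¹) = c * f a * c⁻¹) :
    Function.Injective f ∨ ∃ N, ∀ a, (f ^ N) a = 1 := by
  haveI : Finite (Monoid.End A) :=
    Finite.of_injective (fun g : Monoid.End A => (g : A → A)) (fun _ _ h => MonoidHom.ext (congrFun h))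
  obtain ⟨N, hN, hid⟩ := exists_pow_idem f
  have hn : ∀ n c a, (f ^ n) (c * a * c⁻¹) = c * (f ^ n) a * c⁻¹ := by
    intro n
    induction n with
    | zero => intro c a; simp
    | succ n ih =>
      intro c a
      rw [pow_succ]
      show (f ^ n) (f (c * a * c⁻¹)) = c * (f ^ n) (f a) * c⁻¹
      rw [hf, ih]
  set p : A →* A := f ^ N with hp
  have hpp : ∀ a, p (p a) = p a := fun a => congrArg (fun g : Monoid.End A => g a) hid
  have hrn : p.range.Normal := ⟨by
    rintro _ ⟨a, rfl⟩ c
    exact ⟨c * a * c⁻¹, hn N c a⟩⟩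
  have h1 : p.ker ⊓ p.range = ⊥ := by
    rw [eq_bot_iff]
    rintro x ⟨hx, a, rfl⟩
    have : p (p a) = 1 := hx
    rw [hpp] at this
    simpa using this
  have h2 : p.ker ⊔ p.range = ⊤ := by
    rw [eq_top_iff]
    intro x _
    have : x = (x * (p x)⁻¹) * p x := by group
    rw [this]
    refine Subgroup.mul_mem_sup ?_ ⟨x, rfl⟩
    show p _ = 1
    rw [map_mul, map_inv, hpp, mul_inv_cancel]
  rcases hA.2 _ _ inferInstance hrn h1 h2 with h | h
  · left
    have hinj : Function.Injective p := (MonoidHom.ker_eq_bot_iff p).1 h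
    obtain ⟨M, rfl⟩ : ∃ M, N = M + 1 := ⟨N - 1, by omega⟩
    intro a b hab
    apply hinj
    show (f ^ (M + 1)) a = (f ^ (M + 1)) b
    rw [pow_succ]
    show (f ^ M) (f a) = (f ^ M) (f b)
    rw [hab]
  · right
    refine ⟨N, fun a => ?_⟩
    have : p a ∈ p.range := ⟨a, rfl⟩
    rw [h] at this
    exact this

theorem injective_or_injective {A : Type*} [Group A] [Finite A] (hA : Indec A)
    (f g u : A →* A) (hf : ∀ c a, f (c * a * c⁻¹) = c * f a * c⁻¹)
    (hu : ∀ c a, u (c * a * c⁻¹) = c * u a * c⁻¹) (hinj : Function.Injective u)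
    (h : ∀ a, u a = f a * g a) : Function.Injective f ∨ Function.Injective g := by
  let v : A ≃* A := MulEquiv.ofBijective u (Finite.injective_iff_bijective.1 hinj)
  have hv : ∀ a, v a = u a := fun a => rfl
  let f' : Monoid.End A := v.symm.toMonoidHom.comp f
  have hf' : ∀ a, f' a = v.symm (f a) := fun a => rfl
  have hn : ∀ c a, f' (c * a * c⁻¹) = c * f' a * c⁻¹ := by
    intro c a
    rw [hf', hf', hf]
    apply v.injective
    rw [v.apply_symm_apply, hv, hu, ← hv, v.apply_symm_apply]
  rcases injective_or_nilpotent hA f' hn with h1 | ⟨N, hN⟩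
  · left
    intro a b hab
    apply h1
    rw [hf', hf', hab]
  · right
    rw [injective_iff_map_eq_one]
    intro a ha
    have h2 : f' a = a := by
      rw [hf']
      apply v.injective
      rw [v.apply_symm_apply, hv, h, ha, mul_one]
    have h3 : ∀ n, (f' ^ n) a = a := by
      intro n
      induction n with
      | zero => simp
      | succ n ih =>
        rw [pow_succ]
        show (f' ^ n) (f' a) = a
        rw [h2, ih]
    rw [← h3 N, hN]

/-- restriction to a set of coordinates -/
def piRestrict {κ : Type*} [DecidableEq κ] (B : κ → Type*) [∀ j, Group (B j)] (s : Finset κ) :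
    ((j : κ) → B j) →* ((j : κ) → B j) where
  toFun x := fun j => if j ∈ s then x j else 1
  map_one' := by ext j; simp
  map_mul' x y := by ext j; by_cases h : j ∈ s <;> simp [h]

theorem exists_exchange {A A' : Type*} [Group A] [Group A'] [Finite A] {κ : Type*} [Fintype κ]
    {B : κ → Type*} [∀ j, Group (B j)] (hA : Indec A) (hB : ∀ j, Indec (B j))
    (e : A × A' ≃* ((j : κ) → B j)) :
    ∃ j, Function.Bijective (fun a : A => e (a, 1) j) := by
  classical
  let F : Finset κ → (A →* A) := fun s =>
    (MonoidHom.fst A A').comp (e.symm.toMonoidHom.comp ((piRestrict B s).comp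
      (e.toMonoidHom.comp (MonoidHom.inl A A'))))
  have hF : ∀ s a, F s a = (e.symm (piRestrict B s (e (a, 1)))).1 := fun s a => rfl
  have hFn : ∀ s c a, F s (c * a * c⁻¹) = c * F s a * c⁻¹ := by
    intro s c a
    rw [hF, hF]
    have e1 : ((c * a * c⁻¹, 1) : A × A') = (c, 1) * (a, 1) * (c, 1)⁻¹ := by ext <;> simp
    have e2 : ∀ g x : (j : κ) → B j, piRestrict B s (g * x * g⁻¹) = g * piRestrict B s x * g⁻¹ := by
      intro g x
      ext j
      by_cases h : j ∈ s <;> simp [piRestrict, h]
    rw [e1, map_mul e, map_mul e, map_inv e, e2, map_mul, map_mul, map_inv, e.symm_apply_apply]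
    simp
  have key : ∀ s : Finset κ, Function.Injective (F s) → ∃ j, Function.Injective (F {j}) := by
    intro s
    induction s using Finset.induction_on with
    | empty =>
      intro h
      exfalso
      haveI := hA.1
      obtain ⟨a, ha⟩ := exists_ne (1 : A)
      apply ha
      apply h
      have : ∀ x, piRestrict B ∅ x = 1 := fun x => by ext j; simp [piRestrict]
      rw [hF, hF, this, this]
    | insert j s hj ih =>
      intro h
      have hmul : ∀ a, F (insert j s) a = F {j} a * F s a := by
        intro a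
        rw [hF, hF, hF, ← Prod.fst_mul, ← map_mul]
        congr 2
        ext k
        by_cases h1 : k = j
        · subst h1; simp [piRestrict, hj]
        · by_cases h2 : k ∈ s <;> simp [piRestrict, h1, h2]
      rcases injective_or_injective hA (F {j}) (F s) (F (insert j s)) (hFn _) (hFn _) h hmul
        with h1 | h1
      · exact ⟨j, h1⟩
      · exact ih h1
  obtain ⟨j, hj⟩ := key Finset.univ (by
    intro a b hab
    have : ∀ x, piRestrict B Finset.univ x = x := fun x => by ext j; simp [piRestrict]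
    rw [hF, hF, this, this] at hab
    simpa using hab)
  refine ⟨j, ?_⟩
  let α : A →* B j := (Pi.evalMonoidHom B j).comp (e.toMonoidHom.comp (MonoidHom.inl A A'))
  have hα : ∀ a, α a = e (a, 1) j := fun a => rfl
  let β : B j →* A := (MonoidHom.fst A A').comp (e.symm.toMonoidHom.comp (MonoidHom.mulSingle B j))
  have hβ : ∀ b, β b = (e.symm (Pi.mulSingle j b)).1 := fun b => rfl
  have hβα : ∀ a, β (α a) = F {j} a := by
    intro a
    rw [hβ, hα, hF]
    congr 2
    ext k
    by_cases h1 : k = j
    · subst h1; simp [piRestrict]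
    · simp [piRestrict, h1]
  have hαinj : Function.Injective α := by
    intro a b hab
    apply hj
    rw [← hβα, ← hβα, hab]
  have hsurj : Function.Surjective (F {j}) := Finite.injective_iff_surjective.1 hj
  have hrn : α.range.Normal := ⟨by
    rintro _ ⟨a, rfl⟩ c
    refine ⟨(e.symm (Pi.mulSingle j c)).1 * a * ((e.symm (Pi.mulSingle j c)).1)⁻¹, ?_⟩
    rw [hα, hα]
    have : (((e.symm (Pi.mulSingle j c)).1 * a * ((e.symm (Pi.mulSingle j c)).1)⁻¹, 1) : A × A')
        = e.symm (Pi.mulSingle j c) * (a, 1) * (e.symm (Pi.mulSingle j c))⁻¹ := by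
      ext <;> simp
    rw [this, map_mul, map_mul, map_inv, e.apply_symm_apply]
    simp⟩
  have h1 : α.range ⊓ β.ker = ⊥ := by
    rw [eq_bot_iff]
    rintro x ⟨⟨a, rfl⟩, hx⟩
    have : β (α a) = 1 := hx
    rw [hβα] at this
    have : a = 1 := hj (by rw [this, map_one])
    simp [this]
  have h2 : α.range ⊔ β.ker = ⊤ := by
    rw [eq_top_iff]
    intro x _
    obtain ⟨a, ha⟩ := hsurj (β x)
    have : x = α a * ((α a)⁻¹ * x) := by group
    rw [this]
    refine Subgroup.mul_mem_sup ⟨a, rfl⟩ ?_
    show β _ = 1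
    rw [map_mul, map_inv, hβα, ha, inv_mul_cancel]
  have hker : β.ker = ⊥ := by
    rcases (hB j).2 _ _ hrn inferInstance h1 h2 with h | h
    · exfalso
      haveI := hA.1
      obtain ⟨a, ha⟩ := exists_ne (1 : A)
      have : α a ∈ α.range := ⟨a, rfl⟩
      rw [h] at this
      exact ha (hαinj (by rw [map_one]; exact this))
    · exact h
  rw [hker, sup_bot_eq] at h2
  exact ⟨hαinj, MonoidHom.range_eq_top.1 h2⟩

theorem cancel_of_bijective {A A' B B' : Type*} [Group A] [Group A'] [Group B] [Group B']
    [Finite A] [Finite A'] [Finite B] [Finite B'] (e : A × A' ≃* B × B')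
    (h : Function.Bijective (fun a : A => (e (a, 1)).1)) : Nonempty (B' ≃* A') := by
  let γ : B' →* A' := (MonoidHom.snd A A').comp (e.symm.toMonoidHom.comp (MonoidHom.inr B B'))
  have hγ : ∀ b, γ b = (e.symm (1, b)).2 := fun b => rfl
  have hinj : Function.Injective γ := by
    rw [injective_iff_map_eq_one]
    intro b hb
    rw [hγ] at hb
    have e1 : e ((e.symm (1, b)).1, 1) = (1, b) := by
      rw [← hb]; exact e.apply_symm_apply _
    have e2 : (e.symm (1, b)).1 = 1 := by
      apply h.1
      show (e _).1 = (e _).1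
      rw [e1]
      have : ((1, 1) : A × A') = 1 := rfl
      rw [this, map_one]
      rfl
    rw [e2] at e1
    have : ((1, 1) : A × A') = 1 := rfl
    rw [this, map_one] at e1
    exact (congrArg Prod.snd e1).symm
  have c1 : Nat.card A = Nat.card B := Nat.card_eq_of_bijective _ h
  have c2 : Nat.card A * Nat.card A' = Nat.card B * Nat.card B' := by
    rw [← Nat.card_prod, ← Nat.card_prod]; exact Nat.card_congr e.toEquiv
  rw [c1] at c2
  have c3 : Nat.card A' = Nat.card B' := Nat.eq_of_mul_eq_mul_left Nat.card_pos c2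
  exact ⟨MulEquiv.ofBijective γ ((Nat.bijective_iff_injective_and_card γ).2 ⟨hinj, c3.symm⟩)⟩

/-- split off one coordinate -/
def piSplit {n : ℕ} (B : Fin (n + 1) → Type*) [∀ j, Group (B j)] (j : Fin (n + 1)) :
    ((k : Fin (n + 1)) → B k) ≃* B j × ((k : Fin n) → B (j.succAbove k)) where
  toEquiv := (Fin.insertNthEquiv B j).symm
  map_mul' x y := by
    ext <;> simp [Fin.insertNthEquiv, Fin.removeNth]

theorem krs : ∀ (m : ℕ) {n : ℕ} {A : Fin m → Type*} {B : Fin n → Type*} [∀ i, Group (A i)]
    [∀ j, Group (B j)] [∀ i, Finite (A i)] [∀ j, Finite (B j)] (_ : ∀ i, Indec (A i))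
    (_ : ∀ j, Indec (B j)) (_ : ((i : Fin m) → A i) ≃* ((j : Fin n) → B j)),
    ∃ σ : Fin m ≃ Fin n, ∀ i, Nonempty (A i ≃* B (σ i)) := by
  intro m
  induction m with
  | zero =>
    intro n A B _ _ _ _ hA hB e
    have : n = 0 := by
      by_contra hn
      let j : Fin n := ⟨0, by omega⟩
      haveI := (hB j).1
      obtain ⟨b, hb⟩ := exists_ne (1 : B j)
      haveI : Subsingleton ((j : Fin n) → B j) := e.symm.injective.subsingleton
      have := congrFun (Subsingleton.elim (Pi.mulSingle j b : (j : Fin n) → B j) 1) j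
      simp at this
      exact hb this
    subst this
    exact ⟨Equiv.refl _, fun i => i.elim0⟩
  | succ m ih =>
    intro n A B _ _ _ _ hA hB e
    obtain ⟨j, hj⟩ := exists_exchange (hA 0) hB ((piSplit A 0).symm.trans e)
    obtain ⟨n, rfl⟩ : ∃ n', n = n' + 1 := ⟨n - 1, by have := j.2; omega⟩
    obtain ⟨e'⟩ := cancel_of_bijective (((piSplit A 0).symm.trans e).trans (piSplit B j)) hj
    obtain ⟨σ, hσ⟩ := ih (fun i => hA _) (fun k => hB _) e'.symm
    refine ⟨(finSuccEquiv' 0).trans (σ.optionCongr.trans (finSuccEquiv' j).symm), fun i => ?_⟩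
    refine Fin.succAboveCases 0 ?_ (fun i => ?_) i
    · have : ((finSuccEquiv' 0).trans (σ.optionCongr.trans (finSuccEquiv' j).symm)) 0 = j := by
        simp
      rw [this]
      let α : A 0 →* B j := (Pi.evalMonoidHom B j).comp
        (((piSplit A 0).symm.trans e).toMonoidHom.comp (MonoidHom.inl _ _))
      exact ⟨MulEquiv.ofBijective α hj⟩
    · have : ((finSuccEquiv' 0).trans (σ.optionCongr.trans (finSuccEquiv' j).symm))
          ((0 : Fin (m + 1)).succAbove i) = j.succAbove (σ i) := by
        simp only [Equiv.trans_apply, finSuccEquiv'_succAbove, Equiv.optionCongr_apply,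
          Option.map_some, finSuccEquiv'_symm_some]
      rw [this]
      exact hσ i

end Cfsg.Agent.H7
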