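import Cfsg.Agent.H7.Quad5
import Cfsg.Agent.H3.PBasic

/-! Permutation `p`-groups all of whose nontrivial orbits have length `p`. -/

namespace Cfsg.Agent.H7

open Subgroup Equiv MulAction
open scoped commutatorElement Pointwise

variable {α : Type*} [Fintype α] [DecidableEq α]

theorem alternatingGroup_le_of_support_le {G : Subgroup (Perm α)} {m : ℕ}
    (hG : IsMultiplyPretransitive G α m) (h5 : 5 ≤ Fintype.card α) {g : Perm α} (hg : g ∈ G)
    (h1 : g ≠ 1) (hs : g.support.card ≤ m) (hm : m ≤ Fintype.card α) : alternatingGroup α ≤ G := by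
  have hG' : IsMultiplyPretransitive G α g.support.card :=
    isMultiplyPretransitive_of_le (n := m) hs (by rwa [Nat.card_eq_fintype_card])
  have h2 : g ∈ G.normalCore := by
    intro σ
    obtain ⟨k, hk, hk'⟩ := H6.exists_mem_agree hG' g.support rfl σ
    have : σ * g * σ⁻¹ = k * g * k⁻¹ := by
      have e : (k⁻¹ * σ) * g = g * (k⁻¹ * σ) := by
        ext a
        simp only [Perm.mul_apply]
        have fx : ∀ b ∈ g.support, k⁻¹ (σ b) = b := fun b hb => by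
          rw [← hk' b hb]; simp
        by_cases ha : a ∈ g.support
        · rw [fx a ha, fx _ (Perm.apply_mem_support.2 ha)]
        · rw [Perm.notMem_support.1 ha, eq_comm, ← Perm.notMem_support]
          intro hb
          have := fx _ hb
          rw [Perm.inv_eq_iff_eq, hk' _ hb] at this
          have h3 := (k⁻¹ * σ).injective (a₁ := k⁻¹ (σ a)) (a₂ := a) (fx _ hb)
          exact ha (h3 ▸ hb)
      calc σ * g * σ⁻¹ = k * ((k⁻¹ * σ) * g) * σ⁻¹ := by group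
        _ = k * g * k⁻¹ := by rw [e]; group
    rw [this]
    exact G.mul_mem (G.mul_mem hk hg) (G.inv_mem hk)
  have h3 : Nontrivial G.normalCore := (nontrivial_iff_ne_bot _).2 fun h => h1 (by
    rw [h] at h2; exact h2)
  exact (Perm.alternatingGroup_le_of_normal (by rwa [Nat.card_eq_fintype_card]) h3).trans
    G.normalCore_le

/-- all orbits outside `F` have length `p` -/
structure Mil (p : ℕ) (P : Subgroup (Perm α)) (F : Finset α) : Prop where
  hP : IsPGroup p P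
  fix : ∀ y ∈ P, ∀ a ∈ F, y a = a
  idx : ∀ a ∉ F, (stabilizer P a).index = p

namespace Mil

variable {p : ℕ} [hp : Fact p.Prime] {P : Subgroup (Perm α)} {F : Finset α} (m : Mil p P F)
include m

omit hp in
theorem notMem {a : α} (ha : a ∉ F) {y : Perm α} (hy : y ∈ P) : y a ∉ F := fun h =>
  ha (y.injective (m.fix y hy _ h) ▸ h)

theorem agree {a : α} (ha : a ∉ F) {u v z : Perm α} (hu : u ∈ P) (hv : v ∈ P) (hz : z ∈ P)
    (h : u a = v a) : u (z a) = v (z a) := by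
  have hn := H3.normal_of_index_eq_prime m.hP (m.idx a ha)
  have h1 : (⟨v⁻¹ * u, mul_mem (inv_mem hv) hu⟩ : P) ∈ stabilizer P a := by
    show v⁻¹ (u a) = a
    rw [h]; simp
  have h2 : z⁻¹ (v⁻¹ (u (z⁻¹⁻¹ a))) = a := hn.conj_mem _ h1 ⟨z⁻¹, inv_mem hz⟩
  rw [inv_inv, Perm.inv_eq_iff_eq, Perm.inv_eq_iff_eq] at h2
  exact h2

theorem agree_pow {a : α} (ha : a ∉ F) {u v : Perm α} (hu : u ∈ P) (hv : v ∈ P)
    (h : u a = v a) (n : ℕ) : (u ^ n) a = (v ^ n) a := by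
  induction n with
  | zero => simp
  | succ n ih =>
    rw [pow_succ', pow_succ', Perm.mul_apply, Perm.mul_apply, ih,
      m.agree ha hu hv (pow_mem hv n) h]

theorem pow_eq_one {y : Perm α} (hy : y ∈ P) : y ^ p = 1 := by
  ext a
  by_cases ha : a ∈ F
  · exact m.fix _ (pow_mem hy p) a ha
  · have hn := H3.normal_of_index_eq_prime m.hP (m.idx a ha)
    have := (stabilizer P a).pow_index_mem (⟨y, hy⟩ : P)
    rw [m.idx a ha] at this
    exact this

theorem exists_moved {a : α} (ha : a ∉ F) : ∃ x ∈ P, x a ≠ a := by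
  by_contra h
  push Not at h
  have h1 : stabilizer P a = ⊤ := eq_top_iff.2 fun x _ => h x x.2
  have := m.idx a ha
  rw [h1, index_top] at this
  exact hp.out.one_lt.ne this

theorem exists_pow {a : α} (ha : a ∉ F) {x y : Perm α} (hx : x ∈ P) (hy : y ∈ P) (h : x a ≠ a) :
    ∃ n : ℕ, (x ^ n) a = y a := by
  have hn := H3.normal_of_index_eq_prime m.hP (m.idx a ha)
  have h1 : ((⟨x, hx⟩ : P) : P ⧸ stabilizer P a) ≠ 1 := by
    rw [Ne, QuotientGroup.eq_one_iff]; exact h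
  have h2 : ((⟨y, hy⟩ : P) : P ⧸ stabilizer P a) ∈
      zpowers ((⟨x, hx⟩ : P) : P ⧸ stabilizer P a) := by
    rw [zpowers_eq_top_of_prime_card (m.idx a ha) h1]; trivial
  obtain ⟨n, hn⟩ := mem_powers_iff_mem_zpowers.2 h2
  refine ⟨n, ?_⟩
  simp only [← QuotientGroup.mk_pow] at hn
  have h3 : (x ^ n)⁻¹ (y a) = a := QuotientGroup.eq.1 hn
  rw [Perm.inv_eq_iff_eq] at h3
  exact h3.symm

omit hp in
theorem ncard_orbit {a : α} (ha : a ∉ F) : (orbit P a).ncard = p := by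
  rw [← index_stabilizer, m.idx a ha]

theorem exists_mult {a : α} (ha : a ∉ F) {g : Perm α} (hg : g ∈ normalizer (P : Set (Perm α)))
    (hga : ∃ z ∈ P, g⁻¹ a = z a) : ∃ l : ℕ, ∀ y ∈ P, (g * y * g⁻¹) a = (y ^ l) a := by
  obtain ⟨x, hx, hxa⟩ := m.exists_moved ha
  obtain ⟨z, hz, hza⟩ := hga
  have hc : ∀ y ∈ P, g * y * g⁻¹ ∈ P := fun y hy => (mem_normalizer_iff.1 hg y).1 hy
  obtain ⟨l, hl⟩ := m.exists_pow ha hx (hc x hx) hxa
  refine ⟨l, fun y hy => ?_⟩
  obtain ⟨n, hn⟩ := m.exists_pow ha hx hy hxa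
  have e1 : (g * y * g⁻¹) a = (g * x ^ n * g⁻¹) a := by
    simp only [Perm.mul_apply]
    rw [hza, m.agree ha (pow_mem hx n) hy hz hn]
  rw [e1, ← conj_pow, ← m.agree_pow ha (pow_mem hx l) (hc x hx) hl, ← pow_mul, mul_comm, pow_mul,
    m.agree_pow ha (pow_mem hx n) hy hn]

theorem comm {y z : Perm α} (hy : y ∈ P) (hz : z ∈ P) : y * z = z * y := by
  ext a
  by_cases ha : a ∈ F
  · rw [m.fix _ (mul_mem hy hz) a ha, m.fix _ (mul_mem hz hy) a ha]
  · obtain ⟨x, hx, hxa⟩ := m.exists_moved ha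
    obtain ⟨i, hi⟩ := m.exists_pow ha hx hy hxa
    obtain ⟨j, hj⟩ := m.exists_pow ha hx hz hxa
    simp only [Perm.mul_apply]
    rw [← m.agree ha (pow_mem hx i) hy hz hi, ← m.agree ha (pow_mem hx j) hz hy hj, ← hi, ← hj,
      ← Perm.mul_apply, ← Perm.mul_apply, ← pow_add, ← pow_add, add_comm]

/-- elements of the normalizer stabilizing all orbits commute modulo the centralizer -/
theorem commutator_mem_centralizer {g h : Perm α} (hg : g ∈ normalizer (P : Set (Perm α)))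
    (hh : h ∈ normalizer (P : Set (Perm α))) (hga : ∀ a ∉ F, ∃ z ∈ P, g a = z a)
    (hha : ∀ a ∉ F, ∃ z ∈ P, h a = z a) : ⁅g, h⁆ ∈ centralizer (P : Set (Perm α)) := by
  intro y hy
  have hcg : ∀ y ∈ P, g⁻¹ * y * g⁻¹⁻¹ ∈ P := fun y hy => (mem_normalizer_iff.1 (inv_mem hg) y).1 hy
  have hch : ∀ y ∈ P, h⁻¹ * y * h⁻¹⁻¹ ∈ P := fun y hy => (mem_normalizer_iff.1 (inv_mem hh) y).1 hy
  have key : h⁻¹ * (g⁻¹ * y * g⁻¹⁻¹) * h⁻¹⁻¹ = g⁻¹ * (h⁻¹ * y * h⁻¹⁻¹) * g⁻¹⁻¹ := by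
    ext a
    by_cases ha : a ∈ F
    · rw [m.fix _ (hch _ (hcg y hy)) a ha, m.fix _ (hcg _ (hch y hy)) a ha]
    · obtain ⟨l, hl⟩ := m.exists_mult ha (inv_mem hg) (by simpa using hga a ha)
      obtain ⟨k, hk⟩ := m.exists_mult ha (inv_mem hh) (by simpa using hha a ha)
      rw [hk _ (hcg y hy), hl _ (hch y hy), conj_pow, conj_pow, hl _ (pow_mem hy k),
        hk _ (pow_mem hy l), ← pow_mul, ← pow_mul, mul_comm k l]
  rw [commutatorElement_def]
  calc y * (g * h * g⁻¹ * h⁻¹) = g * h * (h⁻¹ * (g⁻¹ * y * g⁻¹⁻¹) * h⁻¹⁻¹) * g⁻¹ * h⁻¹ := by group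
    _ = g * h * g⁻¹ * h⁻¹ * y := by rw [key]; group

theorem comm_of_centralizer {c d : Perm α} (hc : c ∈ centralizer (P : Set (Perm α)))
    (hd : d ∈ centralizer (P : Set (Perm α))) {a : α} (hca : ∃ z ∈ P, c a = z a)
    (hda : ∃ z ∈ P, d a = z a) : c (d a) = d (c a) := by
  obtain ⟨y, hy, e1⟩ := hca
  obtain ⟨z, hz, e2⟩ := hda
  rw [e1, e2, ← Perm.mul_apply, ← hc z hz, ← Perm.mul_apply d, ← hd y hy, Perm.mul_apply,
    Perm.mul_apply, e1, e2, ← Perm.mul_apply, m.comm hz hy, Perm.mul_apply]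

theorem pow_apply_of_centralizer {c : Perm α} (hc : c ∈ centralizer (P : Set (Perm α)))
    {a : α} (hca : ∃ z ∈ P, c a = z a) : (c ^ p) a = a := by
  obtain ⟨y, hy, e1⟩ := hca
  have : ∀ n : ℕ, (c ^ n) a = (y ^ n) a := by
    intro n
    induction n with
    | zero => simp
    | succ n ih =>
      rw [pow_succ', Perm.mul_apply, ih, ← Perm.mul_apply, ← hc _ (pow_mem hy n), Perm.mul_apply,
        e1, pow_succ, Perm.mul_apply]
  rw [this, m.pow_eq_one hy, Perm.one_apply]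

/-- with at most three orbits and no cycles, the stabilizer of the orbits acts by scalars -/
theorem exists_scalar (h3 : Fᶜ.card ≤ 3 * p)
    (hnc : ∀ y ∈ P, y.support.card ≤ p → y = 1) {g : Perm α}
    (hg : g ∈ normalizer (P : Set (Perm α))) (hga : ∀ a ∉ F, ∃ z ∈ P, g⁻¹ a = z a) :
    ∃ l : ℕ, ∀ y ∈ P, g * y * g⁻¹ = y ^ l := by
  classical
  have hc : ∀ y ∈ P, g * y * g⁻¹ ∈ P := fun y hy => (mem_normalizer_iff.1 hg y).1 hy
  choose! l hl using fun a ha => m.exists_mult ha hg (hga a ha)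
  let T : α → Finset α := fun a => (orbit P a).toFinite.toFinset
  have hT : ∀ a b, b ∈ T a ↔ ∃ z ∈ P, z a = b := fun a b => by
    simp only [T, Set.Finite.mem_toFinset, mem_orbit_iff]
    exact ⟨fun ⟨z, hz⟩ => ⟨z, z.2, hz⟩, fun ⟨z, hz, e⟩ => ⟨⟨z, hz⟩, e⟩⟩
  have cT : ∀ a ∉ F, (T a).card = p := fun a ha => by
    rw [← m.ncard_orbit ha, Set.ncard_eq_toFinset_card _ (orbit P a).toFinite]
  have sT : ∀ a ∉ F, T a ⊆ Fᶜ := fun a ha b hb => by
    obtain ⟨z, hz, rfl⟩ := (hT a b).1 hb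
    exact Finset.mem_compl.2 (m.notMem ha hz)
  have fT : ∀ a ∉ F, ∀ y ∈ P, y a = a → ∀ b ∈ T a, y b = b := fun a ha y hy h b hb => by
    obtain ⟨z, hz, rfl⟩ := (hT a b).1 hb
    exact m.agree ha hy (one_mem _) hz h
  have two : ∀ a ∉ F, ∀ b ∉ F, b ∉ T a → ∀ y ∈ P, y a = a → y b = b → y = 1 := by
    intro a ha b hb hab y hy h1 h2
    apply hnc y hy
    have hd : Disjoint (T a) (T b) := by
      rw [Finset.disjoint_left]
      intro c h1 h2
      obtain ⟨z, hz, rfl⟩ := (hT _ _).1 h1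
      obtain ⟨w, hw, e⟩ := (hT _ _).1 h2
      exact hab ((hT _ _).2 ⟨w⁻¹ * z, mul_mem (inv_mem hw) hz, by simp [← e]⟩)
    have hs : y.support ⊆ Fᶜ \ (T a ∪ T b) := fun c hc => by
      rw [Perm.mem_support] at hc
      refine Finset.mem_sdiff.2 ⟨Finset.mem_compl.2 fun k => hc (m.fix y hy c k), fun k => ?_⟩
      rcases Finset.mem_union.1 k with k | k
      exacts [hc (fT a ha y hy h1 c k), hc (fT b hb y hy h2 c k)]
    have := Finset.card_le_card hs
    rw [Finset.card_sdiff_of_subset (Finset.union_subset (sT a ha) (sT b hb)),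
      Finset.card_union_of_disjoint hd, cT a ha, cT b hb] at this
    omega
  by_cases hne : ∃ a ∉ F, ∀ y ∈ P, y a = a → y = 1
  · obtain ⟨a, ha, h⟩ := hne
    refine ⟨l a, fun y hy => ?_⟩
    have := h ((y ^ l a)⁻¹ * (g * y * g⁻¹)) (mul_mem (inv_mem (pow_mem hy _)) (hc y hy)) (by
      rw [Perm.mul_apply, hl a ha y hy]; simp)
    exact (inv_mul_eq_one.1 this).symm
  push Not at hne
  by_cases hF : ∀ a, a ∈ F
  · exact ⟨1, fun y hy => by
      ext a; rw [m.fix _ (hc y hy) a (hF a), m.fix _ (pow_mem hy 1) a (hF a)]⟩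
  push Not at hF
  obtain ⟨a, ha⟩ := hF
  refine ⟨l a, fun y hy => ?_⟩
  ext b
  by_cases hb : b ∈ F
  · rw [m.fix _ (hc y hy) b hb, m.fix _ (pow_mem hy _) b hb]
  by_cases hab : b ∈ T a
  · obtain ⟨z, hz, rfl⟩ := (hT _ _).1 hab
    exact m.agree ha (hc y hy) (pow_mem hy _) hz (hl a ha y hy)
  obtain ⟨c, hc1, hc2, hc3⟩ : ∃ c, c ∉ F ∧ c ∉ T a ∧ c ∉ T b := by
    by_contra k
    push Not at k
    obtain ⟨z, hz, h1, h2⟩ := hne a ha
    apply h2
    apply hnc z hz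
    rw [← cT b hb]
    apply Finset.card_le_card
    intro c hc
    rw [Perm.mem_support] at hc
    exact k c (fun k => hc (m.fix z hz c k)) (fun k => hc (fT a ha z hz h1 c k))
  obtain ⟨z, hz, h1, h2⟩ := hne c hc1
  have key : ∀ d ∉ F, c ∉ T d → g * z * g⁻¹ = z ^ l d := by
    intro d hd hcd
    have := two d hd c hc1 hcd ((z ^ l d)⁻¹ * (g * z * g⁻¹))
      (mul_mem (inv_mem (pow_mem hz _)) (hc z hz)) (by rw [Perm.mul_apply, hl d hd z hz]; simp)
      (by
        rw [Perm.mul_apply, hl c hc1 z hz, Perm.inv_eq_iff_eq,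
          Perm.pow_apply_eq_self_of_apply_eq_self h1, Perm.pow_apply_eq_self_of_apply_eq_self h1])
    exact (inv_mul_eq_one.1 this).symm
  have e := (key a ha hc2).symm.trans (key b hb hc3)
  rw [pow_eq_pow_iff_modEq, orderOf_eq_prime (m.pow_eq_one hz) h2] at e
  rw [hl b hb y hy, pow_eq_pow_iff_modEq.2
    (e.of_dvd (orderOf_dvd_of_pow_eq_one (m.pow_eq_one hy)))]

end Mil

end Cfsg.Agent.H7
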