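import Cfsg.Agent.L.Invol

/-! Quadruply transitive groups with four-point stabilizers of odd order: basics. -/

namespace Cfsg.Agent.H7

open Subgroup

/-- four distinct points -/
def D4 {α : Type*} (a b c d : α) : Prop := a ≠ b ∧ a ≠ c ∧ a ≠ d ∧ b ≠ c ∧ b ≠ d ∧ c ≠ d

/-- quadruply transitive, four point stabilizers odd -/
structure Q4 (G α : Type*) [Group G] [MulAction G α] : Prop where
  trans : ∀ {a b c d a' b' c' d' : α}, D4 a b c d → D4 a' b' c' d' →
    ∃ g : G, g • a = a' ∧ g • b = b' ∧ g • c = c' ∧ g • d = d'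
  odd : ∀ {a b c d : α} {g : G}, D4 a b c d → g • a = a → g • b = b → g • c = c → g • d = d →
    Odd (orderOf g)

variable {G α : Type*} [Group G] [MulAction G α]

theorem pow_smul_eq_of_smul_eq {g : G} {x : α} (h : g • x = x) (n : ℕ) : g ^ n • x = x := by
  induction n with
  | zero => simp
  | succ n ih => rw [pow_succ, mul_smul, h, ih]

theorem conj_of_odd {s t : G} (hs : s * s = 1) (ht : t * t = 1) (h : Odd (orderOf (s * t))) :
    ∃ k : ℕ, ((s * t) ^ k)⁻¹ * s * (s * t) ^ k = t := by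
  obtain ⟨k, h1, h2⟩ := L.exists_invol_conj_of_odd hs ht h
  refine ⟨k, ?_⟩
  rw [← L.invol_conj_pow hs ht k]
  simpa only [mul_assoc] using h2

theorem smul_eq_of_odd {g : G} (h : Odd (orderOf g)) {x : α} (hx : g • g • x = x) : g • x = x := by
  obtain ⟨k, hk⟩ := h
  have h1 : (g * g) ^ k • x = x := pow_smul_eq_of_smul_eq (by rw [mul_smul, hx]) k
  have h2 : g * (g * g) ^ k = 1 := by
    rw [← sq, ← pow_mul, ← pow_succ', ← hk, pow_orderOf_eq_one]
  calc g • x = g • (g * g) ^ k • x := by rw [h1]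
    _ = x := by rw [← mul_smul, h2, one_smul]

theorem exists_invol_pow {g : G} (h : Odd (orderOf (g * g))) :
    ∃ m : ℕ, g ^ m * g ^ m = 1 ∧ ∀ x : α, g • g • x = x → g ^ m • x = g • x := by
  obtain ⟨k, hk⟩ := h
  refine ⟨2 * k + 1, ?_, fun x hx => ?_⟩
  · rw [← (Commute.refl g).mul_pow, ← hk, pow_orderOf_eq_one]
  · rw [pow_succ', pow_mul, sq, mul_smul, pow_smul_eq_of_smul_eq (by rw [mul_smul, hx])]

theorem eq_one_of_odd_of_mul_self {s : G} (hs : s * s = 1) (h : Odd (orderOf s)) : s = 1 := by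
  have h1 : orderOf s ∣ 2 := orderOf_dvd_of_pow_eq_one (by rw [sq, hs])
  rcases (Nat.dvd_prime Nat.prime_two).1 h1 with h2 | h2
  · exact orderOf_eq_one_iff.1 h2
  · rw [h2] at h; exact absurd h (by decide)

theorem smul_smul_of_invol {s : G} (hs : s * s = 1) (x : α) : s • s • x = x := by
  rw [← mul_smul, hs, one_smul]

namespace Q4

theorem eq_one (q : Q4 G α) {s : G} (hs : s * s = 1) {a b c d : α} (h : D4 a b c d)
    (ha : s • a = a) (hb : s • b = b) (hc : s • c = c) (hd : s • d = d) : s = 1 :=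
  eq_one_of_odd_of_mul_self hs (q.odd h ha hb hc hd)

theorem exists_type1 (q : Q4 G α) {a b c d : α} (h : D4 a b c d) :
    ∃ s : G, s * s = 1 ∧ s • a = a ∧ s • b = b ∧ s • c = d ∧ s • d = c := by
  obtain ⟨g, h1, h2, h3, h4⟩ := q.trans h (show D4 a b d c by unfold D4 at *; tauto)
  obtain ⟨m, k1, k2⟩ := exists_invol_pow (α := α) (q.odd (g := g * g) h
    (by rw [mul_smul, h1, h1]) (by rw [mul_smul, h2, h2]) (by rw [mul_smul, h3, h4])
    (by rw [mul_smul, h4, h3]))
  exact ⟨g ^ m, k1, by rw [k2 a (by rw [h1, h1]), h1], by rw [k2 b (by rw [h2, h2]), h2],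
    by rw [k2 c (by rw [h3, h4]), h3], by rw [k2 d (by rw [h4, h3]), h4]⟩

/-- involutions which agree on four points are conjugate by an element fixing all points on which
they agree and commuting with everything that commutes with their product -/
theorem exists_conj (q : Q4 G α) {s t : G} (hs : s * s = 1) (ht : t * t = 1) {a b c d : α}
    (h : D4 a b c d) (ha : s • a = t • a) (hb : s • b = t • b) (hc : s • c = t • c)
    (hd : s • d = t • d) :
    ∃ y : G, y * s * y⁻¹ = t ∧ (∀ x : α, s • x = t • x → y • x = x) ∧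
      ∀ u : G, Commute u (s * t) → Commute u y := by
  have key : ∀ x : α, s • x = t • x → (s * t) • x = x := fun x hx => by
    rw [mul_smul, ← hx, smul_smul_of_invol hs]
  obtain ⟨k, hk⟩ := conj_of_odd hs ht (q.odd h (key a ha) (key b hb) (key c hc) (key d hd))
  refine ⟨((s * t) ^ k)⁻¹, by rw [inv_inv]; exact hk, fun x hx => ?_, fun u hu => ?_⟩
  · rw [inv_smul_eq_iff, pow_smul_eq_of_smul_eq (key x hx)]
  · exact (hu.pow_right k).inv_right

theorem exists_four (q : Q4 G α) {p1 p2 p3 p4 : α} (h : D4 p1 p2 p3 p4) :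
    ∃ a b : G, a * a = 1 ∧ b * b = 1 ∧ a * b = b * a ∧ a • p1 = p1 ∧ a • p2 = p2 ∧
      a • p3 = p4 ∧ a • p4 = p3 ∧ b • p1 = p2 ∧ b • p2 = p1 ∧ b • p3 = p3 ∧ b • p4 = p4 := by
  obtain ⟨a, ha, a1, a2, a3, a4⟩ := q.exists_type1 h
  obtain ⟨w, hw, w3, w4, w1, w2⟩ := q.exists_type1 (show D4 p3 p4 p1 p2 by unfold D4 at *; tauto)
  have g1 : (a * w) • p1 = p2 := by rw [mul_smul, w1, a2]
  have g2 : (a * w) • p2 = p1 := by rw [mul_smul, w2, a1]
  have g3 : (a * w) • p3 = p4 := by rw [mul_smul, w3, a3]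
  have g4 : (a * w) • p4 = p3 := by rw [mul_smul, w4, a4]
  obtain ⟨m, k1, k2⟩ := exists_invol_pow (α := α) (q.odd (g := (a * w) * (a * w)) h
    (by rw [mul_smul, g1, g2]) (by rw [mul_smul, g2, g1]) (by rw [mul_smul, g3, g4])
    (by rw [mul_smul, g4, g3]))
  have hc := L.invol_conj_pow ha hw m
  rw [L.inv_eq_self_of_mul_self k1] at hc
  set z := (a * w) ^ m
  have hc' : a * z = z * a := by
    calc a * z = a * z * (a * a) := by rw [ha, mul_one]
      _ = z * a := by rw [← mul_assoc, hc]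
  refine ⟨a, a * z, ha, ?_, ?_, a1, a2, a3, a4, ?_, ?_, ?_, ?_⟩
  · rw [← mul_assoc, hc, k1]
  · rw [← mul_assoc, ha, one_mul, hc]
  · rw [mul_smul, k2 p1 (by rw [g1, g2]), g1, a2]
  · rw [mul_smul, k2 p2 (by rw [g2, g1]), g2, a1]
  · rw [mul_smul, k2 p3 (by rw [g3, g4]), g3, a4]
  · rw [mul_smul, k2 p4 (by rw [g4, g3]), g4, a3]

theorem d4_reg {a b : G} (ha : a * a = 1) (hb : b * b = 1) (hab : a * b = b * a) {h : α}
    (h1 : a • h ≠ h) (h2 : b • h ≠ h) (h3 : a • b • h ≠ h) : D4 h (a • h) (b • h) (a • b • h) := by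
  refine ⟨h1.symm, h2.symm, h3.symm, fun e => h3 ?_, fun e => h2 ?_, fun e => h1 ?_⟩
  · rw [← e, smul_smul_of_invol ha]
  · exact ((smul_left_cancel_iff a).1 e).symm
  · rw [← mul_smul, hab, mul_smul] at e
    exact ((smul_left_cancel_iff b).1 e).symm

theorem exists_v (q : Q4 G α) {a b : G} (ha : a * a = 1) (hb : b * b = 1) (hab : a * b = b * a)
    {h : α} (h1 : a • h ≠ h) (h2 : b • h ≠ h) (h3 : a • b • h ≠ h) :
    ∃ v : G, v * v = 1 ∧ v * a = a * v ∧ v * b = a * b * v ∧ v • h = h := by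
  have hd := d4_reg ha hb hab h1 h2 h3
  have hab' : ∀ x : α, b • a • x = a • b • x := fun x => by rw [← mul_smul, ← hab, mul_smul]
  have haa := smul_smul_of_invol (α := α) ha
  have hbb := smul_smul_of_invol (α := α) hb
  obtain ⟨w, hw, w1, w2, w3, w4⟩ := q.exists_type1 hd
  have g1 : (a * w) • h = a • h := by rw [mul_smul, w1]
  have g2 : (a * w) • a • h = h := by rw [mul_smul, w2, haa]
  have g3 : (a * w) • b • h = b • h := by rw [mul_smul, w3, haa]
  have g4 : (a * w) • a • b • h = a • b • h := by rw [mul_smul, w4]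
  obtain ⟨m, k1, k2⟩ := exists_invol_pow (α := α) (q.odd (g := (a * w) * (a * w)) hd
    (by rw [mul_smul, g1, g2]) (by rw [mul_smul, g2, g1]) (by rw [mul_smul, g3, g3])
    (by rw [mul_smul, g4, g4]))
  have hc := L.invol_conj_pow ha hw m
  rw [L.inv_eq_self_of_mul_self k1] at hc
  set z := (a * w) ^ m
  have hc' : a * z = z * a := by
    calc a * z = a * z * (a * a) := by rw [ha, mul_one]
      _ = z * a := by rw [← mul_assoc, hc]
  have z1 : z • h = a • h := by rw [k2 _ (by rw [g1, g2]), g1]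
  have z2 : z • a • h = h := by rw [k2 _ (by rw [g2, g1]), g2]
  have z3 : z • b • h = b • h := by rw [k2 _ (by rw [g3, g3]), g3]
  have z4 : z • a • b • h = a • b • h := by rw [k2 _ (by rw [g4, g4]), g4]
  have r1 : (z * b) • h = b • h := by rw [mul_smul, z3]
  have r2 : (z * b) • a • h = a • b • h := by rw [mul_smul, hab', z4]
  have r3 : (z * b) • b • h = a • h := by rw [mul_smul, hbb, z1]
  have r4 : (z * b) • a • b • h = h := by rw [mul_smul, hab', hbb, z2]
  set g := z * b with hg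
  have hcom : Commute g a := (show Commute z a from hc'.symm).mul_left hab.symm
  obtain ⟨n, hn⟩ := q.odd (g := g * g * a) hd
    (by rw [mul_smul, mul_smul, r2, r4]) (by rw [mul_smul, mul_smul, haa, r1, r3])
    (by rw [mul_smul, mul_smul, r4, r1]) (by rw [mul_smul, mul_smul, haa, r3, r2])
  have e1 := pow_orderOf_eq_one (g * g * a)
  rw [hn, (hcom.mul_left hcom).mul_pow, (Commute.refl g).mul_pow, pow_succ a, pow_mul a, sq, ha,
    one_pow, one_mul, mul_eq_one_iff_eq_inv, L.inv_eq_self_of_mul_self ha] at e1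
  set ρ := g ^ (2 * n + 1) with hρ
  have e2 : b * ρ * b = ρ⁻¹ := by
    have : b * g * b⁻¹ = g⁻¹ := by
      rw [hg, mul_inv_rev, L.inv_eq_self_of_mul_self k1, L.inv_eq_self_of_mul_self hb,
        mul_assoc, mul_assoc, hb, mul_one]
    rw [hρ, ← inv_pow, ← this, conj_pow, L.inv_eq_self_of_mul_self hb]
  have e3 : Commute ρ a := hcom.pow_left _
  have e4 : ρ • b • h = a • h ∨ ρ • b • h = h := by
    rw [hρ, pow_succ, mul_smul, r3, pow_mul, sq]
    generalize n = j
    induction j with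
    | zero => simp
    | succ j ih =>
      rw [pow_succ', mul_smul, mul_smul]
      rcases ih with ih | ih
      · rw [ih, r2, r4]; simp
      · rw [ih, r1, r3]; simp
  have v1 : ρ * b * (ρ * b) = 1 := by
    rw [mul_assoc, ← mul_assoc b, e2, mul_inv_cancel]
  have v2 : ρ * b * a = a * (ρ * b) := by
    rw [mul_assoc, ← hab, ← mul_assoc, e3.eq, mul_assoc]
  have v3 : ρ * b * b = a * b * (ρ * b) := by
    rw [mul_assoc a, ← mul_assoc b, e2, ← e1, mul_assoc ρ b, hb]; simp
  rcases e4 with e4 | e4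
  · refine ⟨a * (ρ * b), ?_, ?_, ?_, ?_⟩
    · rw [mul_assoc, ← mul_assoc (ρ * b), v2, mul_assoc a, v1, mul_one, ha]
    · rw [mul_assoc, v2]
    · rw [mul_assoc, v3, ← mul_assoc, ← mul_assoc (a * b), mul_assoc a b a, ← hab]
    · rw [mul_smul, mul_smul, e4, haa]
  · exact ⟨ρ * b, v1, v2, v3, by rw [mul_smul, e4]⟩

end Q4

end Cfsg.Agent.H7
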