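import Cfsg.Agent.H7.Quad1

/-! Quadruply transitive groups with four-point stabilizers of odd order: configuration. -/

namespace Cfsg.Agent.H7

open Subgroup

variable {G α : Type*} [Group G] [MulAction G α]

open Classical in
/-- fixed points as a finset -/
noncomputable def fixF [Fintype α] (s : G) : Finset α := Finset.univ.filter (fun x => s • x = x)

theorem mem_fixF [Fintype α] {s : G} {x : α} : x ∈ (fixF s : Finset α) ↔ s • x = x := by
  simp [fixF]

theorem card_fixF_conj [Fintype α] (y s : G) :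
    (fixF (y * s * y⁻¹) : Finset α).card = (fixF s : Finset α).card := by
  symm
  refine Finset.card_bij (fun x _ => y • x) (fun x hx => ?_) (fun x _ x' _ h => ?_) (fun x hx => ?_)
  · rw [mem_fixF] at *
    rw [mul_smul, mul_smul, inv_smul_smul, hx]
  · exact (smul_left_cancel_iff y).1 h
  · refine ⟨y⁻¹ • x, ?_, by simp⟩
    rw [mem_fixF] at *
    rw [mul_smul, mul_smul] at hx
    rw [eq_inv_smul_iff, hx]

namespace Q4

variable [Fintype α]

theorem card_fixF_le (q : Q4 G α) {s : G} (hs : s * s = 1) (h1 : s ≠ 1) :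
    (fixF s : Finset α).card ≤ 3 := by
  by_contra h
  obtain ⟨a, b, c, d, ha, hb, hc, hd, h'⟩ := Finset.three_lt_card_iff.1 (not_le.1 h)
  exact h1 (q.eq_one hs h' (mem_fixF.1 ha) (mem_fixF.1 hb) (mem_fixF.1 hc) (mem_fixF.1 hd))

theorem exists_two_cycles (q : Q4 G α) (hn : 8 ≤ Fintype.card α) {s : G} (hs : s * s = 1)
    (h1 : s ≠ 1) : ∃ a c : α, D4 a (s • a) c (s • c) := by
  classical
  have h3 := q.card_fixF_le hs h1
  obtain ⟨a, -, ha⟩ := Finset.exists_mem_notMem_of_card_lt_card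
    (show (fixF s : Finset α).card < (Finset.univ : Finset α).card by
      rw [Finset.card_univ]; omega)
  obtain ⟨c, -, hc⟩ := Finset.exists_mem_notMem_of_card_lt_card
    (show (insert a (insert (s • a) (fixF s : Finset α))).card < (Finset.univ : Finset α).card by
      rw [Finset.card_univ]
      have := Finset.card_insert_le a (insert (s • a) (fixF s : Finset α))
      have := Finset.card_insert_le (s • a) (fixF s : Finset α)
      omega)
  simp only [Finset.mem_insert, mem_fixF, not_or] at ha hc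
  refine ⟨a, c, Ne.symm ha, Ne.symm hc.1, fun e => hc.2.1 ?_, Ne.symm hc.2.1, fun e => hc.1 ?_,
    Ne.symm hc.2.2⟩
  · rw [e, smul_smul_of_invol hs]
  · exact ((smul_left_cancel_iff s).1 e).symm

theorem card_fixF_eq (q : Q4 G α) (hn : 8 ≤ Fintype.card α) {s t : G} (hs : s * s = 1)
    (h1 : s ≠ 1) (ht : t * t = 1) (h2 : t ≠ 1) :
    (fixF s : Finset α).card = (fixF t : Finset α).card := by
  obtain ⟨a, c, h⟩ := q.exists_two_cycles hn hs h1
  obtain ⟨a', c', h'⟩ := q.exists_two_cycles hn ht h2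
  obtain ⟨g, g1, g2, g3, g4⟩ := q.trans h h'
  have key : ∀ x : α, (g * s * g⁻¹) • g • x = g • s • x := fun x => by
    rw [mul_smul, mul_smul, inv_smul_smul]
  obtain ⟨y, hy, -⟩ := q.exists_conj (s := g * s * g⁻¹) (t := t)
    (by rw [conj_mul, hs]; simp) ht h'
    (by rw [← g2, ← g1, key])
    (by rw [smul_smul_of_invol ht, ← g2, key, smul_smul_of_invol hs, g1])
    (by rw [← g4, ← g3, key])
    (by rw [smul_smul_of_invol ht, ← g4, key, smul_smul_of_invol hs, g3])
  rw [← hy, card_fixF_conj, card_fixF_conj]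

end Q4

/-- the basic configuration -/
structure Conf (a b : G) (p1 p2 p3 p4 p5 p6 : α) : Prop where
  ha : a * a = 1
  hb : b * b = 1
  hab : a * b = b * a
  a1 : a • p1 = p1
  a2 : a • p2 = p2
  a3 : a • p3 = p4
  a5 : a • p5 = p6
  b1 : b • p1 = p2
  b3 : b • p3 = p3
  b4 : b • p4 = p4
  b5 : b • p5 = p6
  n12 : p1 ≠ p2
  n34 : p3 ≠ p4
  n56 : p5 ≠ p6
  esub : ∀ x y : α, a • x = x → b • x = x → a • y = y → b • y = y → x = y
  hP : ∀ s : G, s * s = 1 → s ≠ 1 → ∀ x y : α, x ≠ y → s • x = x → s • y = y →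
    ¬ (a • x = x ∧ b • x = x) → ¬ (a • y = y ∧ b • y = y) →
    (∀ w : α, a • w = w → b • w = w → s • w = w) →
    ∀ w : α, s • w = w → w = x ∨ w = y ∨ (a • w = w ∧ b • w = w)

theorem Conf.symm {a b : G} {p1 p2 p3 p4 p5 p6 : α} (c : Conf a b p1 p2 p3 p4 p5 p6) :
    Conf b a p3 p4 p1 p2 p5 p6 where
  ha := c.hb
  hb := c.ha
  hab := c.hab.symm
  a1 := c.b3
  a2 := c.b4
  a3 := c.b1
  a5 := c.b5
  b1 := c.a3
  b3 := c.a1
  b4 := c.a2
  b5 := c.a5
  n12 := c.n34
  n34 := c.n12
  n56 := c.n56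
  esub := fun x y h1 h2 h3 h4 => c.esub x y h2 h1 h4 h3
  hP := fun s h1 h2 x y h3 h4 h5 h6 h7 h8 w hw => by
    have := c.hP s h1 h2 x y h3 h4 h5 (by tauto) (by tauto) (by tauto) w hw
    tauto

theorem Q4.exists_conf [Fintype α] (q : Q4 G α) (hn : 8 ≤ Fintype.card α) :
    ∃ (a b : G) (p1 p2 p3 p4 p5 p6 : α), Conf a b p1 p2 p3 p4 p5 p6 := by
  classical
  obtain ⟨p1, p2, p3, p4, -, -, -, -, h⟩ := Finset.three_lt_card_iff.1
    (show 3 < (Finset.univ : Finset α).card by rw [Finset.card_univ]; omega)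
  obtain ⟨a, b, ha, hb, hab, a1, a2, a3, a4, b1, b2, b3, b4⟩ := q.exists_four h
  obtain ⟨n12, n13, n14, n23, n24, n34⟩ := h
  have hab' : ∀ x : α, b • a • x = a • b • x := fun x => by rw [← mul_smul, ← hab, mul_smul]
  have ha1 : a ≠ 1 := fun e => n34 (by rw [← a3, e, one_smul])
  have hab1 : a * b ≠ 1 := fun e => n12 (by rw [← a2, ← b1, ← mul_smul, e, one_smul])
  have hab2 : a * b * (a * b) = 1 := by
    rw [mul_assoc, ← mul_assoc b, ← hab, mul_assoc a b b, hb, mul_one, ha]
  have h3 := q.card_fixF_le ha ha1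
  have four : ∀ x y : α, a • x = x → a • y = y → x ≠ p1 → x ≠ p2 → y ≠ p1 → y ≠ p2 → x = y := by
    intro x y hx hy h1 h2 h3 h4
    by_contra hne
    exact ha1 (q.eq_one ha (show D4 p1 p2 x y from ⟨n12, h1.symm, h3.symm, h2.symm, h4.symm, hne⟩)
      a1 a2 hx hy)
  have esub : ∀ x y : α, a • x = x → b • x = x → a • y = y → b • y = y → x = y := by
    intro x y h1 h2 h3 h4
    refine four x y h1 h3 ?_ ?_ ?_ ?_
    · rintro rfl; exact n12 (h2.symm.trans b1)
    · rintro rfl; exact n12 (b2.symm.trans h2)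
    · rintro rfl; exact n12 (h4.symm.trans b1)
    · rintro rfl; exact n12 (b2.symm.trans h4)
  let E : Finset α := fixF a ∩ fixF b
  have mE : ∀ x, x ∈ E ↔ a • x = x ∧ b • x = x := fun x => by
    simp only [E, Finset.mem_inter, mem_fixF]
  have hcard : ∀ x y : α, x ≠ y → x ∉ E → y ∉ E → (insert x (insert y E)).card = E.card + 2 := by
    intro x y h1 h2 h3
    rw [Finset.card_insert_of_notMem (by simp [h1, h2]), Finset.card_insert_of_notMem h3]
  have hFa : (fixF a : Finset α) = insert p1 (insert p2 E) := by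
    ext x
    simp only [Finset.mem_insert, mE, mem_fixF]
    constructor
    · intro hx
      by_cases h1 : x = p1
      · exact Or.inl h1
      by_cases h2 : x = p2
      · exact Or.inr (Or.inl h2)
      refine Or.inr (Or.inr ⟨hx, four _ _ (by rw [← hab', hx]) hx ?_ ?_ h1 h2⟩)
      · intro e; apply h2; rw [← b1, ← e, smul_smul_of_invol hb]
      · intro e; apply h1; rw [← b2, ← e, smul_smul_of_invol hb]
    · rintro (rfl | rfl | h)
      exacts [a1, a2, h.1]
  have hca : (fixF a : Finset α).card = E.card + 2 := by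
    rw [hFa]
    refine hcard _ _ n12 ?_ ?_
    · rw [mE]; exact fun h => n12 (h.2.symm.trans b1)
    · rw [mE]; exact fun h => n12 (b2.symm.trans h.2)
  have hP : ∀ s : G, s * s = 1 → s ≠ 1 → ∀ x y : α, x ≠ y → s • x = x → s • y = y →
      ¬ (a • x = x ∧ b • x = x) → ¬ (a • y = y ∧ b • y = y) →
      (∀ w : α, a • w = w → b • w = w → s • w = w) →
      ∀ w : α, s • w = w → w = x ∨ w = y ∨ (a • w = w ∧ b • w = w) := by
    intro s h1 h2 x y h3 h4 h5 h6 h7 h8 w hw
    have e : insert x (insert y E) = fixF s := by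
      apply Finset.eq_of_subset_of_card_le
      · intro z hz
        simp only [Finset.mem_insert, mE] at hz
        rw [mem_fixF]
        rcases hz with rfl | rfl | hz
        exacts [h4, h5, h8 z hz.1 hz.2]
      · rw [hcard x y h3 (by rwa [mE]) (by rwa [mE]), q.card_fixF_eq hn h1 h2 ha ha1, hca]
    have := mem_fixF.2 hw
    rw [← e] at this
    simpa only [Finset.mem_insert, mE] using this
  have hcc : (fixF (a * b) : Finset α).card = E.card + 2 := by
    rw [q.card_fixF_eq hn hab2 hab1 ha ha1, hca]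
  obtain ⟨p5, h5, h5'⟩ := Finset.exists_mem_notMem_of_card_lt_card
    (show E.card < (fixF (a * b) : Finset α).card by omega)
  rw [mem_fixF, mul_smul] at h5
  rw [mE] at h5'
  have b5 : b • p5 = a • p5 := by
    conv_rhs => rw [← h5, smul_smul_of_invol ha]
  exact ⟨a, b, p1, p2, p3, p4, p5, a • p5, ha, hb, hab, a1, a2, a3, rfl, b1, b3, b4, b5, n12, n34,
    fun e => h5' ⟨e.symm, b5.trans e.symm⟩, esub, hP⟩

end Cfsg.Agent.H7
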