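import Cfsg.Agent.H7.Quad2

/-! Quadruply transitive groups with four-point stabilizers of odd order: main analysis. -/

namespace Cfsg.Agent.H7

open Subgroup

variable {G α : Type*} [Group G] [MulAction G α]

namespace Conf

variable {a b : G} {p1 p2 p3 p4 p5 p6 : α} (c : Conf a b p1 p2 p3 p4 p5 p6)
include c

theorem haa (x : α) : a • a • x = x := smul_smul_of_invol c.ha x
theorem hbb (x : α) : b • b • x = x := smul_smul_of_invol c.hb x
theorem hba (x : α) : b • a • x = a • b • x := by rw [← mul_smul, ← c.hab, mul_smul]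
theorem a4 : a • p4 = p3 := by rw [← c.a3, c.haa]
theorem a6 : a • p6 = p5 := by rw [← c.a5, c.haa]
theorem b2 : b • p2 = p1 := c.symm.a4
theorem b6 : b • p6 = p5 := c.symm.a6
theorem a_ne : a ≠ 1 := fun e => c.n34 (by rw [← c.a3, e, one_smul])
theorem ab_ne : a * b ≠ 1 := fun e => c.n12 (by rw [← c.a2, ← c.b1, ← mul_smul, e, one_smul])
theorem hab2 : a * b * (a * b) = 1 := by
  rw [mul_assoc, ← mul_assoc b, ← c.hab, mul_assoc a b b, c.hb, mul_one, c.ha]
theorem nb1 : b • p1 ≠ p1 := by rw [c.b1]; exact c.n12.symm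
theorem nb2 : b • p2 ≠ p2 := by rw [c.b2]; exact c.n12
theorem na3 : a • p3 ≠ p3 := c.symm.nb1
theorem na4 : a • p4 ≠ p4 := c.symm.nb2
theorem na5 : a • p5 ≠ p5 := by rw [c.a5]; exact c.n56.symm
theorem na6 : a • p6 ≠ p6 := by rw [c.a6]; exact c.n56
theorem nb5 : b • p5 ≠ p5 := c.symm.na5
theorem nb6 : b • p6 ≠ p6 := c.symm.na6
theorem ab5 : a • b • p5 = p5 := by rw [c.b5, c.a6]
theorem ab6 : a • b • p6 = p6 := by rw [c.b6, c.a5]

theorem d4 : D4 p1 p2 p3 p4 :=
  ⟨c.n12, fun e => c.na3 (e ▸ c.a1), fun e => c.na4 (e ▸ c.a1), fun e => c.na3 (e ▸ c.a2),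
    fun e => c.na4 (e ▸ c.a2), c.n34⟩

theorem fa (w : α) (hw : a • w = w) : w = p1 ∨ w = p2 ∨ (a • w = w ∧ b • w = w) :=
  c.hP a c.ha c.a_ne p1 p2 c.n12 c.a1 c.a2 (fun h => c.nb1 h.2) (fun h => c.nb2 h.2)
    (fun _ h _ => h) w hw

theorem fb (w : α) (hw : b • w = w) : w = p3 ∨ w = p4 ∨ (a • w = w ∧ b • w = w) := by
  have := c.symm.fa w hw
  tauto

theorem fab (w : α) (hw : a • b • w = w) : w = p5 ∨ w = p6 ∨ (a • w = w ∧ b • w = w) :=
  c.hP (a * b) c.hab2 c.ab_ne p5 p6 c.n56 (by rw [mul_smul, c.ab5]) (by rw [mul_smul, c.ab6])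
    (fun h => c.na5 h.1) (fun h => c.na6 h.1) (fun w h1 h2 => by rw [mul_smul, h2, h1]) w
    (by rw [mul_smul, hw])

theorem exists_v (q : Q4 G α) {h : α} (h1 : a • h ≠ h) (h2 : b • h ≠ h) (h3 : a • b • h ≠ h) :
    ∃ v : G, v * v = 1 ∧ v * a = a * v ∧ v * b = a * b * v ∧ v • h = h ∧
      (∀ w : α, a • w = w → b • w = w → v • w = w) ∧
      (∀ w : α, v • w = w → w = h ∨ w = a • h ∨ (a • w = w ∧ b • w = w)) ∧
      v • p1 = p2 ∧ (v • p3 = p5 ∨ v • p3 = p6) := by
  obtain ⟨v, v1, v2, v3, v4⟩ := q.exists_v c.ha c.hb c.hab h1 h2 h3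
  have va : ∀ x : α, v • a • x = a • v • x := fun x => by rw [← mul_smul, v2, mul_smul]
  have vb : ∀ x : α, v • b • x = a • b • v • x := fun x => by
    rw [← mul_smul, v3, mul_smul, mul_smul]
  have vv := smul_smul_of_invol (α := α) v1
  have vE : ∀ w : α, a • w = w → b • w = w → v • w = w := by
    intro w k1 k2
    have e1 : a • v • w = v • w := by rw [← va, k1]
    have e2 : b • v • w = v • w := by
      have := vb w
      rw [k2, ← c.hba, e1] at this
      exact this.symm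
    exact c.esub _ _ e1 e2 k1 k2
  have vE' : ∀ w : α, a • v • w = v • w → b • v • w = v • w → a • w = w ∧ b • w = w := by
    intro w k1 k2
    have := vE _ k1 k2
    rw [vv] at this
    rw [← this] at k1 k2
    exact ⟨k1, k2⟩
  have hv : v ≠ 1 := by
    intro e
    rw [e, one_mul, mul_one] at v3
    exact c.a_ne (by simpa using v3.symm)
  have vF : ∀ w : α, v • w = w → w = h ∨ w = a • h ∨ (a • w = w ∧ b • w = w) :=
    c.hP v v1 hv h (a • h) h1.symm v4 (by rw [va, v4]) (fun k => h1 k.1)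
      (fun k => h1 (by have := k.1; rw [c.haa] at this; exact this.symm)) vE
  refine ⟨v, v1, v2, v3, v4, vE, vF, ?_, ?_⟩
  · rcases c.fa (v • p1) (by rw [← va, c.a1]) with e | e | e
    · exfalso
      rcases vF p1 e with k | k | k
      · exact h1 (k ▸ c.a1)
      · have := c.a1
        rw [k, c.haa] at this
        exact h1 this.symm
      · exact c.nb1 k.2
    · exact e
    · exact absurd (vE' _ e.1 e.2).2 c.nb1
  · rcases c.fab (v • p3) (by rw [← vb, c.b3]) with e | e | e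
    · exact Or.inl e
    · exact Or.inr e
    · exact absurd (vE' _ e.1 e.2).1 c.na3

theorem exists_c (q : Q4 G α) {h h' : α} (h1 : a • h ≠ h) (h2 : b • h ≠ h) (h3 : a • b • h ≠ h)
    (h1' : a • h' ≠ h') (h2' : b • h' ≠ h') (h3' : a • b • h' ≠ h') :
    ∃ y : G, y • p1 = p1 ∧ y • p2 = p2 ∧ y • p3 = p3 ∧ y • p4 = p4 ∧ y • p5 = p5 ∧ y • p6 = p6 ∧
      (∀ w : α, a • w = w → b • w = w → y • w = w) ∧
      (h' = y • h ∨ h' = y • a • h ∨ h' = y • b • h ∨ h' = y • a • b • h) := by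
  obtain ⟨v, v1, v2, v3, v4, v5, -, v7, v8⟩ := c.exists_v q h1 h2 h3
  obtain ⟨u, u1, u2, u3, -, u5, u6, u7, u8⟩ := c.exists_v q h1' h2' h3'
  have key : ∀ t : G, t * t = 1 → t * a = a * t → t * b = a * b * t → t • p1 = p2 →
      t • p3 = v • p3 → (∀ w : α, a • w = w → b • w = w → t • w = w) →
      ∃ y : G, (y • p1 = p1 ∧ y • p2 = p2 ∧ y • p3 = p3 ∧ y • p4 = p4 ∧ y • p5 = p5 ∧
        y • p6 = p6 ∧ (∀ w : α, a • w = w → b • w = w → y • w = w)) ∧
        (∀ x : α, y • a • x = a • y • x) ∧ (∀ x : α, y • b • x = b • y • x) ∧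
        t • y • h = y • h := by
    intro t t1 t2 t3 t4 t5 t6
    have va : ∀ x : α, v • a • x = a • v • x := fun x => by rw [← mul_smul, v2, mul_smul]
    have ta : ∀ x : α, t • a • x = a • t • x := fun x => by rw [← mul_smul, t2, mul_smul]
    have vv := smul_smul_of_invol (α := α) v1
    have tt := smul_smul_of_invol (α := α) t1
    have e1 : v • p1 = t • p1 := by rw [v7, t4]
    have e2 : v • p2 = t • p2 := by
      nth_rewrite 1 [← v7]; rw [← t4, vv, tt]
    have e4 : v • p4 = t • p4 := by rw [← c.a3, va, ta, t5]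
    have e5 : v • v • p3 = t • v • p3 := by rw [vv, ← t5, tt]
    have e6 : v • a • v • p3 = t • a • v • p3 := by rw [va, ta, e5]
    obtain ⟨y, y1, y2, y3⟩ := q.exists_conj v1 t1 c.d4 e1 e2 t5.symm e4
    have ca : Commute a y := y3 a ((show Commute a v from v2.symm).mul_right t2.symm)
    have cb : Commute b y := y3 b (by
      show b * (v * t) = v * t * b
      rw [mul_assoc v t b, t3, mul_assoc a b t, ← mul_assoc v a, v2, mul_assoc a v, ← mul_assoc v b,
        v3]
      simp only [← mul_assoc, c.ha, one_mul])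
    refine ⟨y, ⟨y2 _ e1, y2 _ e2, y2 _ t5.symm, y2 _ e4, ?_, ?_,
      fun w k1 k2 => y2 w (by rw [v5 w k1 k2, t6 w k1 k2])⟩,
      fun x => by rw [← mul_smul, ← ca.eq, mul_smul], fun x => by rw [← mul_smul, ← cb.eq, mul_smul],
      by rw [← y1, mul_smul, mul_smul, inv_smul_smul, v4]⟩
    · rcases v8 with e | e
      · exact y2 _ (e ▸ e5)
      · rw [e, c.a6] at e6; exact y2 _ e6
    · rcases v8 with e | e
      · rw [e, c.a5] at e6; exact y2 _ e6
      · exact y2 _ (e ▸ e5)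
  have notE : ∀ y : G, (∀ x : α, y • a • x = a • y • x) → a • y • h ≠ y • h := by
    intro y hy e
    rw [← hy] at e
    exact h1 ((smul_left_cancel_iff y).1 e)
  by_cases e : u • p3 = v • p3
  · obtain ⟨y, ⟨y1, y2, y3, y4, y5, y6, y7⟩, ya, yb, yh⟩ := key u u1 u2 u3 u7 e u5
    refine ⟨y, y1, y2, y3, y4, y5, y6, y7, ?_⟩
    rcases u6 _ yh with k | k | k
    · exact Or.inl k.symm
    · right; left; rw [ya, k, c.haa]
    · exact absurd k.1 (notE y ya)
  · have e' : (a * u) • p3 = v • p3 := by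
      rw [mul_smul]
      rcases v8 with k | k <;> rcases u8 with k' | k'
      · exact absurd (k'.trans k.symm) e
      · rw [k, k', c.a6]
      · rw [k, k', c.a5]
      · exact absurd (k'.trans k.symm) e
    obtain ⟨y, ⟨y1, y2, y3, y4, y5, y6, y7⟩, ya, yb, yh⟩ := key (a * u)
      (by rw [mul_assoc, ← mul_assoc u, u2, mul_assoc a u u, u1, mul_one, c.ha])
      (by rw [mul_assoc, u2])
      (by rw [mul_assoc, u3, ← mul_assoc (a * b), mul_assoc a b a, ← c.hab, mul_assoc a (a * b)])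
      (by rw [mul_smul, u7, c.a2]) e' (fun w k1 k2 => by rw [mul_smul, u5 w k1 k2, k1])
    refine ⟨y, y1, y2, y3, y4, y5, y6, y7, ?_⟩
    have k0 : u • b • y • h = b • y • h := by
      rw [← mul_smul u b, u3, mul_smul, mul_smul, ← c.hba, ← mul_smul a u, yh]
    rcases u6 _ k0 with k | k | k
    · right; right; left; rw [yb, k]
    · right; right; right; rw [ya, yb, k, c.haa]
    · exfalso
      have := k.1
      rw [← c.hba] at this
      exact notE y ya ((smul_left_cancel_iff b).1 this)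

end Conf

end Cfsg.Agent.H7
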