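import Cfsg.Agent.H7.Quad3

/-! Quadruply transitive groups with four-point stabilizers of odd order: the degree. -/

namespace Cfsg.Agent.H7

open Subgroup

variable {G α : Type*} [Group G] [MulAction G α]

/-- pointwise stabilizer of the points satisfying a predicate -/
def fixP (G : Type*) {α : Type*} [Group G] [MulAction G α] (D : α → Prop) : Subgroup G where
  carrier := {g | ∀ x, D x → g • x = x}
  one_mem' := fun x _ => one_smul _ x
  mul_mem' := fun {g h} hg hh x hx => by rw [mul_smul, hh x hx, hg x hx]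
  inv_mem' := fun {g} hg x hx => by rw [inv_smul_eq_iff, hg x hx]

theorem conj_mem_fixP {D : α → Prop} {s j : G} (hs : s * s = 1) (hD : ∀ x, D x → D (s • x))
    (hj : j ∈ fixP G D) : s * j * s ∈ fixP G D := fun x hx => by
  rw [mul_smul, mul_smul, hj _ (hD x hx), smul_smul_of_invol hs]

theorem partner_false {D : α → Prop} (hodd : ∀ j ∈ fixP G D, Odd (orderOf j)) {s : G}
    (hs : s * s = 1) (hD : ∀ x, D x → D (s • x)) {x x' : α} (hne : x ≠ x') (hx : s • x = x)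
    (hx' : s • x' = x') (hF : ∀ w, s • w = w → w = x ∨ w = x' ∨ D w) {j : G}
    (hj : j ∈ fixP G D) (h : j • x = x') : False := by
  have ht : j⁻¹ * s * j * (j⁻¹ * s * j) = 1 := by
    have : j⁻¹ * s * j * (j⁻¹ * s * j) = j⁻¹ * (s * s) * j := by group
    rw [this, hs]; simp
  have hm : s * (j⁻¹ * s * j) ∈ fixP G D := by
    have := mul_mem (conj_mem_fixP hs hD (inv_mem hj)) hj
    simpa only [mul_assoc] using this
  obtain ⟨k, hk⟩ := conj_of_odd hs ht (hodd _ hm)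
  have hfx : (s * (j⁻¹ * s * j)) ^ k • x = x := pow_smul_eq_of_smul_eq (by
    rw [mul_smul, mul_smul, mul_smul, h, hx', ← h, inv_smul_smul, hx]) k
  set r := (s * (j⁻¹ * s * j)) ^ k
  have hr : r ∈ fixP G D := pow_mem hm k
  have hw : r * j⁻¹ ∈ fixP G D := mul_mem hr (inv_mem hj)
  have hc : s * (r * j⁻¹) = r * j⁻¹ * s := by
    calc s * (r * j⁻¹) = r * (r⁻¹ * s * r) * j⁻¹ := by group
      _ = r * j⁻¹ * s := by rw [hk]; group
  have w1 : (r * j⁻¹) • x' = x := by rw [mul_smul, ← h, inv_smul_smul, hfx]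
  have w2 : (r * j⁻¹) • x ≠ x := fun e => hne ((smul_left_cancel_iff _).1 (e.trans w1.symm))
  rcases hF ((r * j⁻¹) • x) (by rw [← mul_smul, hc, mul_smul, hx]) with e | e | e
  · exact w2 e
  · exact w2 (smul_eq_of_odd (hodd _ hw) (by rw [e, w1]))
  · exact w2 ((smul_left_cancel_iff _).1 (hw _ e))

namespace Conf

variable {a b : G} {p1 p2 p3 p4 p5 p6 : α} (c : Conf a b p1 p2 p3 p4 p5 p6)
include c

theorem cases (w : α) : w = p1 ∨ w = p2 ∨ w = p3 ∨ w = p4 ∨ w = p5 ∨ w = p6 ∨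
    (a • w = w ∧ b • w = w) ∨ (a • w ≠ w ∧ b • w ≠ w ∧ a • b • w ≠ w) := by
  have h1 := c.fa w
  have h2 := c.fb w
  have h3 := c.fab w
  tauto

theorem main (q : Q4 G α) {h : α} (h1 : a • h ≠ h) (h2 : b • h ≠ h) (h3 : a • b • h ≠ h) :
    ∃ v : G, v * v = 1 ∧ v • h = h ∧ v • a • h = a • h ∧ v • b • h = a • b • h ∧
      (∀ w : α, v • w = w → w = h ∨ w = a • h ∨ (a • w = w ∧ b • w = w)) ∧
      (∀ w : α, w = p1 ∨ w = p2 ∨ w = p3 ∨ w = p4 ∨ w = p5 ∨ w = p6 ∨
        w = h ∨ w = a • h ∨ w = b • h ∨ w = a • b • h ∨ (a • w = w ∧ b • w = w)) ∧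
      ∀ j : G, j • h = h → j • a • h = a • h → j • b • h = b • h → j • a • b • h = a • b • h →
        (∀ w : α, a • w = w → b • w = w → j • w = w) → ∀ x : α, j • x = x := by
  have hd := Q4.d4_reg c.ha c.hb c.hab h1 h2 h3
  obtain ⟨v, v1, v2, v3, v4, v5, v6, -, v8⟩ := c.exists_v q h1 h2 h3
  obtain ⟨u, u1, u2, u3, u4, u5, -, -, u8⟩ := c.symm.exists_v q h2 h1 (by rwa [c.hba])
  have va : ∀ x : α, v • a • x = a • v • x := fun x => by rw [← mul_smul, v2, mul_smul]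
  have vb : ∀ x : α, v • b • x = a • b • v • x := fun x => by
    rw [← mul_smul, v3, mul_smul, mul_smul]
  have ub : ∀ x : α, u • b • x = b • u • x := fun x => by rw [← mul_smul, u2, mul_smul]
  have ua : ∀ x : α, u • a • x = a • b • u • x := fun x => by
    rw [← mul_smul, u3, mul_smul, mul_smul, c.hba]
  let D : α → Prop := fun x =>
    x = h ∨ x = a • h ∨ x = b • h ∨ x = a • b • h ∨ (a • x = x ∧ b • x = x)
  have hodd : ∀ j ∈ fixP G D, Odd (orderOf j) := fun j hj =>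
    q.odd hd (hj _ (by simp [D])) (hj _ (by simp [D])) (hj _ (by simp [D])) (hj _ (by simp [D]))
  have Da : ∀ x, D x → D (a • x) := by
    rintro x (rfl | rfl | rfl | rfl | ⟨k1, k2⟩) <;> simp [D, c.haa, *]
  have Db : ∀ x, D x → D (b • x) := by
    rintro x (rfl | rfl | rfl | rfl | ⟨k1, k2⟩) <;> simp [D, c.hbb, c.hba, *]
  have Dv : ∀ x, D x → D (v • x) := by
    rintro x (rfl | rfl | rfl | rfl | ⟨k1, k2⟩)
    · simp [D, v4]
    · simp [D, va, v4]
    · simp [D, vb, v4]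
    · simp [D, va, vb, v4, c.haa]
    · simp [D, v5 x k1 k2, k1, k2]
  have Du : ∀ x, D x → D (u • x) := by
    rintro x (rfl | rfl | rfl | rfl | ⟨k1, k2⟩)
    · simp [D, u4]
    · simp [D, ua, u4]
    · simp [D, ub, u4]
    · simp [D, ua, ub, u4, c.hbb]
    · simp [D, u5 x k2 k1, k1, k2]
  let Q : Fin 6 → α := ![p1, p2, p3, p4, p5, p6]
  let S : Fin 6 → G := ![a, a, b, b, a * b, a * b]
  let π : Fin 6 → Fin 6 := ![1, 0, 3, 2, 5, 4]
  have S1 : ∀ r, S r * S r = 1 := by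
    intro r; fin_cases r <;> simp [S, c.ha, c.hb, c.hab2]
  have S2 : ∀ r x, D x → D (S r • x) := by
    intro r x hx
    fin_cases r <;> simp only [S, Fin.reduceFinMk, Matrix.cons_val, mul_smul]
    exacts [Da x hx, Da x hx, Db x hx, Db x hx, Da _ (Db x hx), Da _ (Db x hx)]
  have S3 : ∀ r, S r • Q r = Q r ∧ S r • Q (π r) = Q (π r) ∧ Q r ≠ Q (π r) := by
    intro r
    fin_cases r <;> simp [S, Q, π, mul_smul, c.a1, c.a2, c.b3, c.b4, c.ab5, c.ab6, c.n12, c.n34,
      c.n56, c.n12.symm, c.n34.symm, c.n56.symm]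
  have S4 : ∀ r w, S r • w = w → w = Q r ∨ w = Q (π r) ∨ D w := by
    intro r w hw
    have dE : ∀ {x y : α}, (w = x ∨ w = y ∨ (a • w = w ∧ b • w = w)) →
        (w = x ∨ w = y ∨ D w) ∧ (w = y ∨ w = x ∨ D w) := by
      rintro x y (k | k | k)
      · exact ⟨Or.inl k, Or.inr (Or.inl k)⟩
      · exact ⟨Or.inr (Or.inl k), Or.inl k⟩
      · have : D w := Or.inr (Or.inr (Or.inr (Or.inr k)))
        exact ⟨Or.inr (Or.inr this), Or.inr (Or.inr this)⟩
    fin_cases r <;> simp only [S, Q, π, Fin.reduceFinMk, Matrix.cons_val, mul_smul] at hw ⊢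
    exacts [(dE (c.fa w hw)).1, (dE (c.fa w hw)).2, (dE (c.fb w hw)).1, (dE (c.fb w hw)).2,
      (dE (c.fab w hw)).1, (dE (c.fab w hw)).2]
  have S5 : ∀ r s, s ≠ r → s ≠ π r → S s • Q r = Q (π r) := by
    intro r s
    fin_cases r <;> fin_cases s <;> simp [S, Q, π, mul_smul, c.a1, c.a2, c.a3, c.a4, c.a5, c.a6,
      c.b1, c.b2, c.b3, c.b4, c.b5, c.b6]
  have part : ∀ r, ∀ j ∈ fixP G D, j • Q r ≠ Q (π r) := fun r j hj e =>
    partner_false hodd (S1 r) (S2 r) (S3 r).2.2 (S3 r).1 (S3 r).2.1 (S4 r) hj e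
  have hdist : ∀ r s, ∀ j ∈ fixP G D, j • Q r = Q s → r = s := by
    intro r s j hj e
    by_contra hne
    by_cases h' : s = π r
    · exact part r j hj (h' ▸ e)
    · refine part r ((S s * j * S s)⁻¹ * j) (mul_mem (inv_mem (conj_mem_fixP (S1 s) (S2 s) hj)) hj) ?_
      rw [mul_smul, inv_smul_eq_iff, mul_smul, mul_smul, ← S5 r s (Ne.symm hne) h',
        smul_smul_of_invol (S1 s), e, (S3 s).1]
  have reg1 : ∀ x : α, x = h ∨ x = a • h ∨ x = b • h ∨ x = a • b • h →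
      a • x ≠ x ∧ b • x ≠ x ∧ a • b • x ≠ x := by
    obtain ⟨d1, d2, d3, d4, d5, d6⟩ := hd
    rintro x (rfl | rfl | rfl | rfl) <;>
      simp only [c.haa, c.hbb, c.hba, ne_eq] <;> refine ⟨?_, ?_, ?_⟩ <;>
      first | assumption | (apply Ne.symm; assumption)
  have QD : ∀ r, ¬ D (Q r) := by
    intro r hr
    have k : (a • Q r ≠ Q r ∧ b • Q r ≠ Q r ∧ a • b • Q r ≠ Q r) ∨
        (a • Q r = Q r ∧ b • Q r = Q r) := by
      rcases hr with k | k | k | k | k
      · exact Or.inl (reg1 _ (Or.inl k))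
      · exact Or.inl (reg1 _ (Or.inr (Or.inl k)))
      · exact Or.inl (reg1 _ (Or.inr (Or.inr (Or.inl k))))
      · exact Or.inl (reg1 _ (Or.inr (Or.inr (Or.inr k))))
      · exact Or.inr k
    fin_cases r <;> simp only [Q, Fin.reduceFinMk, Matrix.cons_val] at k
    · exact k.elim (fun k => k.1 c.a1) (fun k => c.nb1 k.2)
    · exact k.elim (fun k => k.1 c.a2) (fun k => c.nb2 k.2)
    · exact k.elim (fun k => k.2.1 c.b3) (fun k => c.na3 k.1)
    · exact k.elim (fun k => k.2.1 c.b4) (fun k => c.na4 k.1)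
    · exact k.elim (fun k => k.2.2 c.ab5) (fun k => c.na5 k.1)
    · exact k.elim (fun k => k.2.2 c.ab6) (fun k => c.na6 k.1)
  -- the element `γ`
  obtain ⟨γ, g1, g2, g3, g4, g5⟩ : ∃ γ : G, γ • p1 = h ∧ γ • p2 = a • h ∧ γ • p3 = b • h ∧
      γ • p4 = a • b • h ∧ ∀ w : α, a • w = w → b • w = w → γ • w = w := by
    obtain ⟨g, g1, g2, g3, g4⟩ := q.trans c.d4 hd
    have key : ∀ x : α, (g * a * g⁻¹) • g • x = g • a • x := fun x => by
      rw [mul_smul, mul_smul, inv_smul_smul]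
    have e1 : (g * a * g⁻¹) • h = v • h := by rw [v4, ← g1, key, c.a1]
    have e2 : (g * a * g⁻¹) • a • h = v • a • h := by rw [va, v4, ← g2, key, c.a2]
    have e3 : (g * a * g⁻¹) • b • h = v • b • h := by rw [vb, v4, ← g4, ← g3, key, c.a3]
    have e4 : (g * a * g⁻¹) • a • b • h = v • a • b • h := by
      rw [va, vb, v4, c.haa, ← g4, ← g3, key, c.a4]
    obtain ⟨y, y1, y2, -⟩ := q.exists_conj (s := g * a * g⁻¹) (t := v)
      (by rw [conj_mul, c.ha]; simp) v1 hd e1 e2 e3 e4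
    have f1 : (y * g) • p1 = h := by rw [mul_smul, g1, y2 _ e1]
    have f2 : (y * g) • p2 = a • h := by rw [mul_smul, g2, y2 _ e2]
    refine ⟨y * g, f1, f2, by rw [mul_smul, g3, y2 _ e3], by rw [mul_smul, g4, y2 _ e4],
      fun w k1 k2 => ?_⟩
    rcases v6 ((y * g) • w) (by
      rw [← y1, mul_smul y g, mul_smul _ y⁻¹, inv_smul_smul, mul_smul y, key, k1]) with e | e | e
    · rw [← f1, smul_left_cancel_iff] at e
      exact absurd (e ▸ k2) c.nb1
    · rw [← f2, smul_left_cancel_iff] at e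
      exact absurd (e ▸ k2) c.nb2
    · exact c.esub _ _ e.1 e.2 k1 k2
  let D' : α → Prop := fun x =>
    x = p1 ∨ x = p2 ∨ x = p3 ∨ x = p4 ∨ x = p5 ∨ x = p6 ∨ (a • x = x ∧ b • x = x)
  have hγ : ∀ y ∈ fixP G D', γ * y * γ⁻¹ ∈ fixP G D := by
    intro y hy x hx
    have key : ∀ z : α, D' z → (γ * y * γ⁻¹) • γ • z = γ • z := fun z hz => by
      rw [mul_smul, mul_smul, inv_smul_smul, hy z hz]
    rcases hx with rfl | rfl | rfl | rfl | ⟨k1, k2⟩
    · rw [← g1]; exact key _ (by simp [D'])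
    · rw [← g2]; exact key _ (by simp [D'])
    · rw [← g3]; exact key _ (by simp [D'])
    · rw [← g4]; exact key _ (by simp [D'])
    · rw [← g5 x k1 k2]; exact key _ (by simp [D', k1, k2])
  let T : Fin 6 → α := ![p5, p6, h, a • h, b • h, a • b • h]
  have hT : ∀ w, ¬ D w → ∃ s, ∃ y ∈ fixP G D', w = γ • y • T s := by
    intro w hw
    rcases c.cases (γ⁻¹ • w) with e | e | e | e | e | e | e | e
    · exact absurd (by rw [inv_smul_eq_iff, g1] at e; simp [D, e]) hw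
    · exact absurd (by rw [inv_smul_eq_iff, g2] at e; simp [D, e]) hw
    · exact absurd (by rw [inv_smul_eq_iff, g3] at e; simp [D, e]) hw
    · exact absurd (by rw [inv_smul_eq_iff, g4] at e; simp [D, e]) hw
    · exact ⟨0, 1, one_mem _, by rw [inv_smul_eq_iff] at e; simp [T, e]⟩
    · exact ⟨1, 1, one_mem _, by rw [inv_smul_eq_iff] at e; simp [T, e]⟩
    · have := g5 _ e.1 e.2
      rw [smul_inv_smul] at this
      rw [← this] at e
      exact absurd (by simp [D, e.1, e.2]) hw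
    · obtain ⟨y, y1, y2, y3, y4, y5, y6, y7, y8⟩ := c.exists_c q h1 h2 h3 e.1 e.2.1 e.2.2
      have hy : y ∈ fixP G D' := by
        rintro x (rfl | rfl | rfl | rfl | rfl | rfl | ⟨k1, k2⟩)
        exacts [y1, y2, y3, y4, y5, y6, y7 x k1 k2]
      simp only [inv_smul_eq_iff] at y8
      rcases y8 with e | e | e | e
      · exact ⟨2, y, hy, by simp [T, e]⟩
      · exact ⟨3, y, hy, by simp [T, e]⟩
      · exact ⟨4, y, hy, by simp [T, e]⟩
      · exact ⟨5, y, hy, by simp [T, e]⟩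
  choose κ Y hY hκ using fun r => hT (Q r) (QD r)
  have move : ∀ (y y' : G) (t : α), (γ * (y' * y⁻¹) * γ⁻¹) • γ • y • t = γ • y' • t := by
    intro y y' t
    simp [mul_smul]
  have κinj : Function.Injective κ := by
    intro r s e
    refine hdist r s _ (hγ _ (mul_mem (hY s) (inv_mem (hY r)))) ?_
    rw [hκ r, move, e, ← hκ s]
  have κsurj : Function.Surjective κ := Finite.injective_iff_surjective.1 κinj
  have hall : ∀ w, ¬ D w → ∃ r, ∃ y ∈ fixP G D', w = γ • y • T (κ r) ∧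
      ∃ j ∈ fixP G D, w = j • Q r := by
    intro w hw
    obtain ⟨s, y, hy, e⟩ := hT w hw
    obtain ⟨r, rfl⟩ := κsurj s
    exact ⟨r, y, hy, e, _, hγ _ (mul_mem hy (inv_mem (hY r))), by rw [hκ r, move, e]⟩
  obtain ⟨r0, hr0⟩ := κsurj 0
  have fix0 : ∀ j ∈ fixP G D, j • Q r0 = Q r0 := by
    intro j hj
    have hw : ¬ D (j • Q r0) := fun k => by
      have := hj _ k
      rw [smul_left_cancel_iff] at this
      exact QD r0 (this ▸ k)
    obtain ⟨r, y, hy, e, j', hj', e'⟩ := hall _ hw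
    have : r0 = r := hdist r0 r (j'⁻¹ * j) (mul_mem (inv_mem hj') hj)
      (by rw [mul_smul, e', inv_smul_smul])
    subst this
    have t0 : T (κ r0) = p5 := by rw [hr0]; rfl
    rw [e, hκ r0, t0, hy p5 (by simp [D']), hY r0 p5 (by simp [D'])]
  have prop : ∀ s : G, s * s = 1 → (∀ x, D x → D (s • x)) → ∀ x : α,
      (∀ j ∈ fixP G D, j • x = x) → ∀ j ∈ fixP G D, j • s • x = s • x := by
    intro s hs hD x hx j hj
    have := hx _ (conj_mem_fixP hs hD hj)
    rw [mul_smul, mul_smul] at this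
    conv_rhs => rw [← this, smul_smul_of_invol hs]
  have pa := prop a c.ha Da
  have pb := prop b c.hb Db
  have pv := prop v v1 Dv
  have pu := prop u u1 Du
  have of56 : ∀ x : α, x = p5 ∨ x = p6 → (∀ j ∈ fixP G D, j • x = x) →
      ∀ j ∈ fixP G D, j • p5 = p5 := by
    rintro x (rfl | rfl) hx
    · exact hx
    · rw [← c.a6]; exact pa _ hx
  have f5 : ∀ j ∈ fixP G D, j • p5 = p5 := by
    have k1 : (∀ j ∈ fixP G D, j • p1 = p1) → ∀ j ∈ fixP G D, j • p5 = p5 :=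
      fun k => of56 _ u8 (pu _ k)
    have k3 : (∀ j ∈ fixP G D, j • p3 = p3) → ∀ j ∈ fixP G D, j • p5 = p5 :=
      fun k => of56 _ v8 (pv _ k)
    fin_cases r0 <;> simp only [Q, Fin.reduceFinMk, Matrix.cons_val] at fix0
    · exact k1 fix0
    · exact k1 (c.b2 ▸ pb _ fix0)
    · exact k3 fix0
    · exact k3 (c.a4 ▸ pa _ fix0)
    · exact fix0
    · exact of56 _ (Or.inr rfl) fix0
  have f6 : ∀ j ∈ fixP G D, j • p6 = p6 := c.a5 ▸ pa _ f5
  have f56 : ∀ x : α, x = p5 ∨ x = p6 → ∀ j ∈ fixP G D, j • x = x := by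
    rintro x (rfl | rfl)
    exacts [f5, f6]
  have f3 : ∀ j ∈ fixP G D, j • p3 = p3 := by
    have := pv _ (f56 _ v8)
    rwa [smul_smul_of_invol v1] at this
  have f1 : ∀ j ∈ fixP G D, j • p1 = p1 := by
    have := pu _ (f56 _ u8)
    rwa [smul_smul_of_invol u1] at this
  have f4 : ∀ j ∈ fixP G D, j • p4 = p4 := c.a3 ▸ pa _ f3
  have f2 : ∀ j ∈ fixP G D, j • p2 = p2 := c.b1 ▸ pb _ f1
  have fQ : ∀ r, ∀ j ∈ fixP G D, j • Q r = Q r := by
    intro r
    fin_cases r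
    exacts [f1, f2, f3, f4, f5, f6]
  have hcov : ∀ w, D w ∨ ∃ r, w = Q r := by
    intro w
    by_cases hw : D w
    · exact Or.inl hw
    · obtain ⟨r, -, -, -, j, hj, e⟩ := hall w hw
      exact Or.inr ⟨r, by rw [e, fQ r j hj]⟩
  refine ⟨v, v1, v4, by rw [va, v4], by rw [vb, v4], v6, fun w => ?_,
    fun j j1 j2 j3 j4 j5 x => ?_⟩
  · rcases hcov w with k | ⟨r, k⟩
    · exact Or.inr (Or.inr (Or.inr (Or.inr (Or.inr (Or.inr k)))))
    · fin_cases r <;> simp only [Q, Fin.reduceFinMk, Matrix.cons_val] at k <;> simp [k]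
  · have hj : j ∈ fixP G D := by
      rintro x (rfl | rfl | rfl | rfl | ⟨k1, k2⟩)
      exacts [j1, j2, j3, j4, j5 x k1 k2]
    rcases hcov x with k | ⟨r, rfl⟩
    · exact hj x k
    · exact fQ r j hj

end Conf

end Cfsg.Agent.H7
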