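import Cfsg.Agent.H7.Quad4
import Cfsg.Agent.H6.JordanCycle
import Cfsg.Agent.H6.TwoPrimes

/-! Quadruply transitive groups with four-point stabilizers of odd order: conclusion. -/

namespace Cfsg.Agent.H7

open Subgroup Equiv MulAction

/-- embedding from four distinct points -/
def D4.emb {α : Type*} {a b c d : α} (h : D4 a b c d) : Fin 4 ↪ α :=
  ⟨![a, b, c, d], by
    obtain ⟨h1, h2, h3, h4, h5, h6⟩ := h
    intro i j
    fin_cases i <;> fin_cases j <;> simp [*, Ne.symm h1, Ne.symm h2, Ne.symm h3, Ne.symm h4,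
      Ne.symm h5, Ne.symm h6]⟩

theorem q4_of {G α : Type*} [Group G] [MulAction G α] (hG : IsMultiplyPretransitive G α 4)
    (x : Fin 4 ↪ α) (hodd : Odd (Nat.card (stabilizer G x))) : Q4 G α where
  trans := fun {a b c d a' b' c' d'} h h' => by
    obtain ⟨g, hg⟩ := exists_smul_eq G h.emb h'.emb
    exact ⟨g, DFunLike.congr_fun hg 0, DFunLike.congr_fun hg 1, DFunLike.congr_fun hg 2,
      DFunLike.congr_fun hg 3⟩
  odd := fun {a b c d g} h ha hb hc hd => by
    obtain ⟨k, hk⟩ := exists_smul_eq G x h.emb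
    have h1 : g • h.emb = h.emb := by
      ext i
      fin_cases i
      exacts [ha, hb, hc, hd]
    have h2 : k⁻¹ * g * k ∈ stabilizer G x := by
      rw [mem_stabilizer_iff, mul_smul, mul_smul, hk, h1, ← hk, inv_smul_smul]
    have h3 := orderOf_dvd_natCard (⟨_, h2⟩ : stabilizer G x)
    rw [orderOf_mk] at h3
    have h4 : orderOf (k⁻¹ * g * k) = orderOf g := by
      have := (MulAut.conj k⁻¹).orderOf_eq g
      simpa using this
    exact hodd.of_dvd_nat (h4 ▸ h3)

theorem card_eq_of_four {G α : Type*} [Group G] [MulAction G α] [Fintype α]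
    (hG : IsMultiplyPretransitive G α 4) (x : Fin 4 ↪ α) :
    Nat.card G = Nat.card (stabilizer G x) * (Fintype.card α).descFactorial 4 := by
  classical
  rw [← (stabilizer G x).card_mul_index, index_stabilizer_of_transitive,
    Nat.card_eq_fintype_card (α := Fin 4 ↪ α), Fintype.card_embedding_eq, Fintype.card_fin]

theorem Conf.card {G α : Type*} [Group G] [MulAction G α] [Fintype α] {a b : G}
    {p1 p2 p3 p4 p5 p6 : α} (c : Conf a b p1 p2 p3 p4 p5 p6) {h : α} (h1 : a • h ≠ h)
    (h2 : b • h ≠ h) (h3 : a • b • h ≠ h) : 10 ≤ Fintype.card α := by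
  classical
  obtain ⟨d1, d2, d3, d4, d5, d6⟩ := Q4.d4_reg c.ha c.hb c.hab h1 h2 h3
  have reg1 : ∀ x ∈ ({h, a • h, b • h, a • b • h} : Finset α),
      a • x ≠ x ∧ b • x ≠ x ∧ a • b • x ≠ x := by
    intro x hx
    simp only [Finset.mem_insert, Finset.mem_singleton] at hx
    rcases hx with rfl | rfl | rfl | rfl <;>
      simp only [c.haa, c.hbb, c.hba, ne_eq] <;> refine ⟨?_, ?_, ?_⟩ <;>
      first | assumption | (apply Ne.symm; assumption)
  have c4 : ({h, a • h, b • h, a • b • h} : Finset α).card = 4 :=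
    Finset.card_eq_four.2 ⟨_, _, _, _, d1, d2, d3, d4, d5, d6, rfl⟩
  set s4 : Finset α := {h, a • h, b • h, a • b • h}
  have c3 : (({p5, p6} : Finset α) ∪ s4).card = 6 := by
    rw [Finset.card_union_of_disjoint, c4, Finset.card_pair c.n56]
    rw [Finset.disjoint_left]
    intro x hx hx'
    simp only [Finset.mem_insert, Finset.mem_singleton] at hx
    rcases hx with rfl | rfl
    exacts [(reg1 _ hx').2.2 c.ab5, (reg1 _ hx').2.2 c.ab6]
  have r3 : ∀ x ∈ ({p5, p6} : Finset α) ∪ s4, a • x ≠ x ∧ b • x ≠ x := by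
    intro x hx
    rcases Finset.mem_union.1 hx with hx | hx
    · simp only [Finset.mem_insert, Finset.mem_singleton] at hx
      rcases hx with rfl | rfl
      exacts [⟨c.na5, c.nb5⟩, ⟨c.na6, c.nb6⟩]
    · exact ⟨(reg1 _ hx).1, (reg1 _ hx).2.1⟩
  set s3 := ({p5, p6} : Finset α) ∪ s4
  have c2 : (({p3, p4} : Finset α) ∪ s3).card = 8 := by
    rw [Finset.card_union_of_disjoint, c3, Finset.card_pair c.n34]
    rw [Finset.disjoint_left]
    intro x hx hx'
    simp only [Finset.mem_insert, Finset.mem_singleton] at hx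
    rcases hx with rfl | rfl
    exacts [(r3 _ hx').2 c.b3, (r3 _ hx').2 c.b4]
  have r2 : ∀ x ∈ ({p3, p4} : Finset α) ∪ s3, a • x ≠ x := by
    intro x hx
    rcases Finset.mem_union.1 hx with hx | hx
    · simp only [Finset.mem_insert, Finset.mem_singleton] at hx
      rcases hx with rfl | rfl
      exacts [c.na3, c.na4]
    · exact (r3 _ hx).1
  set s2 := ({p3, p4} : Finset α) ∪ s3
  have c1 : (({p1, p2} : Finset α) ∪ s2).card = 10 := by
    rw [Finset.card_union_of_disjoint, c2, Finset.card_pair c.n12]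
    rw [Finset.disjoint_left]
    intro x hx hx'
    simp only [Finset.mem_insert, Finset.mem_singleton] at hx
    rcases hx with rfl | rfl
    exacts [(r2 _ hx') c.a1, (r2 _ hx') c.a2]
  rw [← c1]
  exact Finset.card_le_univ _

theorem card_le_of_cover {α : Type*} [Fintype α] (l : List α) (E : α → Prop)
    (hE : ∀ x y, E x → E y → x = y) (h : ∀ w, w ∈ l ∨ E w) : Fintype.card α ≤ l.length + 1 := by
  classical
  have h1 : (Finset.univ.filter E).card ≤ 1 :=
    Finset.card_le_one.2 fun x hx y hy => hE x y (Finset.mem_filter.1 hx).2 (Finset.mem_filter.1 hy).2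
  have h2 : (Finset.univ : Finset α) ⊆ l.toFinset ∪ Finset.univ.filter E := fun w _ => by
    simpa using h w
  have h3 := (Finset.card_le_card h2).trans (Finset.card_union_le _ _)
  have h4 := List.toFinset_card_le l
  rw [Finset.card_univ] at h3
  omega

variable {α : Type*} [Fintype α] [DecidableEq α] {G : Subgroup (Perm α)}

theorem Q4.not_alternating_le (q : Q4 G α) (hn : 8 ≤ Fintype.card α) :
    ¬ alternatingGroup α ≤ G := by
  intro h
  obtain ⟨y⟩ : Nonempty (Fin 8 ↪ α) := Function.Embedding.nonempty_of_card_le (by simpa using hn)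
  have hne : ∀ i j : Fin 8, i ≠ j → y i ≠ y j := fun i j h => y.injective.ne h
  have hg : swap (y 4) (y 5) * swap (y 6) (y 7) ∈ alternatingGroup α := by
    rw [Perm.mem_alternatingGroup, map_mul, Perm.sign_swap (hne _ _ (by decide)),
      Perm.sign_swap (hne _ _ (by decide))]
    simp
  have key : ∀ i : Fin 8, i ≠ 4 → i ≠ 5 → i ≠ 6 → i ≠ 7 →
      (⟨_, h hg⟩ : G) • y i = y i := by
    intro i h4 h5 h6 h7
    show swap (y 4) (y 5) (swap (y 6) (y 7) (y i)) = y i
    rw [swap_apply_of_ne_of_ne (hne _ _ h6) (hne _ _ h7),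
      swap_apply_of_ne_of_ne (hne _ _ h4) (hne _ _ h5)]
  have hodd := q.odd (g := ⟨_, h hg⟩) (show D4 (y 0) (y 1) (y 2) (y 3) from
    ⟨hne _ _ (by decide), hne _ _ (by decide), hne _ _ (by decide), hne _ _ (by decide),
      hne _ _ (by decide), hne _ _ (by decide)⟩)
    (key _ (by decide) (by decide) (by decide) (by decide))
    (key _ (by decide) (by decide) (by decide) (by decide))
    (key _ (by decide) (by decide) (by decide) (by decide))
    (key _ (by decide) (by decide) (by decide) (by decide))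
  have k4 : (⟨_, h hg⟩ : G) • y 4 = y 5 := by
    show swap (y 4) (y 5) (swap (y 6) (y 7) (y 4)) = y 5
    rw [swap_apply_of_ne_of_ne (hne _ _ (by decide)) (hne _ _ (by decide)), swap_apply_left]
  have k5 : (⟨_, h hg⟩ : G) • y 5 = y 4 := by
    show swap (y 4) (y 5) (swap (y 6) (y 7) (y 5)) = y 4
    rw [swap_apply_of_ne_of_ne (hne _ _ (by decide)) (hne _ _ (by decide)), swap_apply_right]
  have := smul_eq_of_odd hodd (x := y 4) (by rw [k4, k5])
  rw [k4] at this
  exact hne _ _ (by decide) this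

theorem alternatingGroup_le_of_prime_order (hG : IsPreprimitive G α) {g : Perm α} (hg : g ∈ G)
    {p : ℕ} (hp : p.Prime) (ho : orderOf g = p) (h1 : g.support.card < 2 * p)
    (h2 : p + 3 ≤ Fintype.card α) : alternatingGroup α ≤ G := by
  have hc : g.IsCycle := Perm.isCycle_of_prime_order (ho ▸ hp) (ho ▸ h1)
  have := hc.orderOf
  rw [ho] at this
  exact H6.alternatingGroup_le_of_isCycle hG hg hc (this ▸ hp) (this ▸ h2)

theorem Q4.card_eq (q : Q4 G α) (hn : 8 ≤ Fintype.card α) (hG : IsPreprimitive G α) :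
    Fintype.card α = 10 ∨ (Fintype.card α = 11 ∧ ∀ (g : G) (a b c d : α), D4 a b c d →
      g • a = a → g • b = b → g • c = c → g • d = d → g = 1) := by
  obtain ⟨a, b, p1, p2, p3, p4, p5, p6, c⟩ := q.exists_conf hn
  have hE : ∀ x y : α, (a • x = x ∧ b • x = x) → (a • y = y ∧ b • y = y) → x = y :=
    fun x y h1 h2 => c.esub x y h1.1 h1.2 h2.1 h2.2
  obtain ⟨h, h1, h2, h3⟩ : ∃ h : α, a • h ≠ h ∧ b • h ≠ h ∧ a • b • h ≠ h := by
    by_contra hne
    have := card_le_of_cover [p1, p2, p3, p4, p5, p6] _ hE (fun w => by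
      have := c.cases w
      simp only [List.mem_cons, List.not_mem_nil, or_false]
      have h' : ¬ (a • w ≠ w ∧ b • w ≠ w ∧ a • b • w ≠ w) := fun k => hne ⟨w, k⟩
      simp only [h', or_false] at this
      simpa only [or_assoc] using this)
    simp at this
    omega
  obtain ⟨v, v1, v2, v3, v4, v5, hcov, hJ⟩ := c.main q h1 h2 h3
  have l1 := c.card h1 h2 h3
  have l2 := card_le_of_cover [p1, p2, p3, p4, p5, p6, h, a • h, b • h, a • b • h] _ hE (fun w => by
      simp only [List.mem_cons, List.not_mem_nil, or_false]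
      simpa only [or_assoc] using hcov w)
  simp only [List.length_cons, List.length_nil] at l2
  by_cases h10 : Fintype.card α = 10
  · exact Or.inl h10
  have h11 : Fintype.card α = 11 := by omega
  refine Or.inr ⟨h11, ?_⟩
  have hd := Q4.d4_reg c.ha c.hb c.hab h1 h2 h3
  let Δ : Finset α := {h, a • h, b • h, a • b • h}
  have cΔ : Δ.card = 4 :=
    Finset.card_eq_four.2 ⟨_, _, _, _, hd.1, hd.2.1, hd.2.2.1, hd.2.2.2.1, hd.2.2.2.2.1,
      hd.2.2.2.2.2, rfl⟩
  have cΔ' : Δᶜ.card = 7 := by rw [Finset.card_compl, h11, cΔ]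
  let K := fixP G (fun x => x ∈ Δ)
  have hK1 : ∀ j ∈ K, (∀ w : α, a • w = w → b • w = w → j • w = w) → j = 1 := by
    intro j hj k
    apply Subtype.ext
    ext x
    exact hJ j (hj _ (by simp [Δ])) (hj _ (by simp [Δ])) (hj _ (by simp [Δ]))
      (hj _ (by simp [Δ])) k x
  have hodd : ∀ j ∈ K, Odd (orderOf j) := fun j hj =>
    q.odd hd (hj _ (by simp [Δ])) (hj _ (by simp [Δ])) (hj _ (by simp [Δ])) (hj _ (by simp [Δ]))
  have hvΔ : ∀ x ∈ Δ, v • x ∈ Δ := by
    intro x hx
    simp only [Δ, Finset.mem_insert, Finset.mem_singleton] at hx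
    rcases hx with rfl | rfl | rfl | rfl
    · simp [Δ, v2]
    · simp [Δ, v3]
    · simp [Δ, v4]
    · rw [← v4, smul_smul_of_invol v1]; simp [Δ]
  have hKb : K = ⊥ := by
    by_contra hne
    obtain ⟨e, he1, he2⟩ : ∃ e : α, a • e = e ∧ b • e = e := by
      by_contra k
      exact hne (eq_bot_iff.2 fun j hj => hK1 j hj fun w k1 k2 => absurd ⟨w, k1, k2⟩ k)
    have heΔ : e ∉ Δ := by
      intro k
      simp only [Δ, Finset.mem_insert, Finset.mem_singleton] at k
      rcases k with rfl | rfl | rfl | rfl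
      · exact h1 he1
      · rw [c.haa] at he1; exact h1 he1.symm
      · rw [c.hbb] at he2; exact h2 he2.symm
      · rw [c.haa] at he1; exact hd.2.2.2.2.2 he1
    have hnot : ∀ j ∈ K, ∀ w, w ∉ Δ → j • w ∉ Δ := fun j hj w hw k => by
      have := hj _ k
      rw [smul_left_cancel_iff] at this
      exact hw (this ▸ k)
    have hle : Nat.card K ≤ 7 := by
      rw [← cΔ', ← Nat.card_eq_finsetCard]
      refine Nat.card_le_card_of_injective
        (fun j : K => (⟨(j : G) • e, Finset.mem_compl.2 (hnot j j.2 e heΔ)⟩ : (Δᶜ : Finset α)))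
        fun j j' k => ?_
      have k' : (j : G) • e = (j' : G) • e := congrArg Subtype.val k
      have := hK1 ((j : G)⁻¹ * j') (mul_mem (inv_mem j.2) j'.2) fun w k1 k2 => by
        rw [c.esub w e k1 k2 he1 he2, mul_smul, ← k', inv_smul_smul]
      exact Subtype.ext (inv_mul_eq_one.1 this)
    have hc1 : Nat.card K ≠ 1 := fun k => hne (card_eq_one.1 k)
    obtain ⟨p, hp, hpd⟩ := Nat.exists_prime_and_dvd hc1
    haveI := Fact.mk hp
    obtain ⟨g, hg⟩ := exists_prime_orderOf_dvd_card' (G := K) p hpd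
    have hg' : orderOf ((g : G) : Perm α) = p := by rw [orderOf_coe, orderOf_coe, hg]
    have hp2 : Odd p := by
      have := hodd g g.2
      rwa [orderOf_coe, hg] at this
    have hsupp : ((g : G) : Perm α).support ⊆ Δᶜ := fun x hx =>
      Finset.mem_compl.2 fun k => Perm.mem_support.1 hx (g.2 x k)
    have hs7 := Finset.card_le_card hsupp
    have hp7 : p ≤ 7 := (Nat.le_of_dvd Nat.card_pos hpd).trans hle
    have hs : 2 * p ≤ ((g : G) : Perm α).support.card := by
      by_contra k
      exact q.not_alternating_le hn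
        (alternatingGroup_le_of_prime_order hG (g : G).2 hp hg' (not_le.1 k) (by omega))
    have hp3 : p = 3 := by
      have := hp.two_le
      obtain ⟨k, hk⟩ := hp2
      omega
    subst hp3
    obtain ⟨m, hm⟩ := H6.le_card_support_of_prime hp hg'
    have hs6 : ((g : G) : Perm α).support.card = 6 := by omega
    have hK3 : Nat.card K = 3 := by
      have h2 : ¬ 2 ∣ Nat.card K := fun k => by
        obtain ⟨t, ht⟩ := exists_prime_orderOf_dvd_card' (G := K) 2 k
        have := hodd t t.2
        rw [orderOf_coe, ht] at this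
        exact absurd this (by decide)
      omega
    obtain ⟨w, hw, hw'⟩ := Finset.exists_mem_notMem_of_card_lt_card
      (show ((g : G) : Perm α).support.card < Δᶜ.card by omega)
    have hgw : (g : G) • w = w := Perm.notMem_support.1 hw'
    have hg1 : g ≠ 1 := fun k => by rw [k, orderOf_one] at hg; omega
    let g' : K := ⟨v * g * v, conj_mem_fixP v1 hvΔ g.2⟩
    have hg'1 : g' ≠ 1 := fun k => hg1 (Subtype.ext (by
      have k' : v * g * v = 1 := congrArg Subtype.val k
      have : (g : G) = v * (v * g * v) * v := by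
        rw [← mul_assoc, ← mul_assoc, v1, one_mul, mul_assoc, v1, mul_one]
      rw [this, k', mul_one, v1]; rfl))
    have hgen : g ∈ zpowers g' := by
      rw [zpowers_eq_top_of_prime_card hK3 hg'1]; trivial
    have hfix : (g : G) • v • w = v • w := by
      obtain ⟨i, hi⟩ := mem_powers_iff_mem_zpowers.2 hgen
      rw [← hi]
      exact pow_smul_eq_of_smul_eq (g := v * g * v)
        (by rw [mul_smul, mul_smul, smul_smul_of_invol v1, hgw]) i
    have hvw : v • w = w := by
      by_contra k
      have k1 : v • w ∈ Δᶜ := Finset.mem_compl.2 fun k' => by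
        have := hvΔ _ k'
        rw [smul_smul_of_invol v1] at this
        exact Finset.mem_compl.1 hw this
      have k2 : ((g : G) : Perm α).support ⊆ (Δᶜ.erase w).erase (v • w) := fun x hx => by
        refine Finset.mem_erase.2 ⟨?_, Finset.mem_erase.2 ⟨?_, hsupp hx⟩⟩
        · rintro rfl; exact Perm.mem_support.1 hx hfix
        · rintro rfl; exact hw' hx
      have := Finset.card_le_card k2
      rw [Finset.card_erase_of_mem (Finset.mem_erase.2 ⟨k, k1⟩), Finset.card_erase_of_mem hw] at this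
      omega
    rcases v5 w hvw with k | k | k
    · exact Finset.mem_compl.1 hw (by simp [Δ, k])
    · exact Finset.mem_compl.1 hw (by simp [Δ, k])
    · exact hg1 (Subtype.ext (hK1 g g.2 fun w' k1 k2 => by rw [c.esub w' w k1 k2 k.1 k.2, hgw]))
  intro g x y z w hxyzw gx gy gz gw
  obtain ⟨k, k1, k2, k3, k4⟩ := q.trans hxyzw hd
  have key : ∀ t : α, g • t = t → (k * g * k⁻¹) • k • t = k • t := fun t ht => by
    rw [mul_smul, mul_smul, inv_smul_smul, ht]
  have : k * g * k⁻¹ ∈ K := by
    intro t ht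
    simp only [Δ, Finset.mem_insert, Finset.mem_singleton] at ht
    rcases ht with rfl | rfl | rfl | rfl
    · rw [← k1]; exact key _ gx
    · rw [← k2]; exact key _ gy
    · rw [← k3]; exact key _ gz
    · rw [← k4]; exact key _ gw
  rw [hKb, mem_bot] at this
  simpa using this

end Cfsg.Agent.H7
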